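import Cfsg.Agent.H3.ClassTwo
import Mathlib.GroupTheory.PGroup

/-! Baer's trick: a group of odd order and class at most two carries an abelian group structure
respected by all automorphisms. -/

set_option autoImplicit false

namespace Cfsg.Agent.H85

open Subgroup
open scoped commutatorElement

/-- Odd order and class at most two. -/
structure BaerHyp (G : Type*) [Group G] : Prop where
  cls : commutator G ≤ center G
  odd : Odd (Nat.card G)

variable {G : Type*} [Group G]

/-- The Baer abelian group on the underlying set of `G`. -/
def Baer (_ : BaerHyp G) : Type _ := G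

namespace Baer

variable {h : BaerHyp G}

/-- half of the commutator -/
noncomputable def hc (h : BaerHyp G) (x y : G) : center G :=
  (⟨⁅x, y⁆, H3.commutator_mem_center h.cls x y⟩ : center G) ^ ((Nat.card G + 1) / 2)

theorem hc_mul_left (x y z : G) : hc h (x * y) z = hc h x z * hc h y z := by
  unfold hc
  rw [← Commute.mul_pow (Subtype.ext (mem_center_iff.mp (Subtype.prop _) _))]
  congr 1
  exact Subtype.ext (H3.commutator_mul_left h.cls x y z)

theorem hc_mul_right (x y z : G) : hc h x (y * z) = hc h x y * hc h x z := by
  unfold hc
  rw [← Commute.mul_pow (Subtype.ext (mem_center_iff.mp (Subtype.prop _) _))]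
  congr 1
  exact Subtype.ext (H3.commutator_mul_right h.cls x y z)

theorem hc_of_commute {x y : G} (hxy : Commute x y) : hc h x y = 1 := by
  unfold hc
  have : (⟨⁅x, y⁆, H3.commutator_mem_center h.cls x y⟩ : center G) = 1 :=
    Subtype.ext (commutatorElement_eq_one_iff_commute.mpr hxy)
  rw [this, one_pow]

theorem hc_center_left (z : center G) (x : G) : hc h z x = 1 :=
  hc_of_commute (mem_center_iff.mp z.2 x).symm

theorem hc_center_right (x : G) (z : center G) : hc h x z = 1 :=
  hc_of_commute (mem_center_iff.mp z.2 x)

theorem hc_sq (x y : G) : ((hc h x y * hc h x y : center G) : G) = ⁅x, y⁆ := by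
  unfold hc
  obtain ⟨k, hk⟩ := h.odd
  rw [← pow_add, show (Nat.card G + 1) / 2 + (Nat.card G + 1) / 2 = Nat.card G + 1 by omega,
    coe_pow, pow_succ, pow_card_eq_one', one_mul]

theorem hc_swap (x y : G) : hc h y x = (hc h x y)⁻¹ := by
  unfold hc
  rw [← inv_pow]
  congr 1
  exact Subtype.ext (commutatorElement_inv x y).symm

theorem cmove (z : center G) (x : G) : (z : G) * x = x * z := (mem_center_iff.mp z.2 x).symm

/-- The identity map to `G`. -/
def val (x : Baer h) : G := x
/-- The identity map from `G`. -/
def mk (h : BaerHyp G) (x : G) : Baer h := x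

noncomputable instance : CommGroup (Baer h) where
  mul x y := (x.val * y.val * hc h y.val x.val : G)
  one := (1 : G)
  inv x := (x.val⁻¹ : G)
  mul_assoc x y z := by
    change x.val * y.val * hc h y.val x.val * z.val * hc h z.val (x.val * y.val * hc h y.val x.val) =
      x.val * (y.val * z.val * hc h z.val y.val) * hc h (y.val * z.val * hc h z.val y.val) x.val
    rw [hc_mul_right, hc_mul_right, hc_mul_left, hc_mul_left, hc_center_left, hc_center_right,
      mul_one, mul_one, mul_assoc (x.val * y.val), cmove]
    simp only [mul_assoc, ← coe_mul]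
    congr 4
    ac_rfl
  one_mul x := by
    change 1 * x.val * hc h x.val 1 = x.val
    rw [hc_of_commute (Commute.one_right _)]; simp
  mul_one x := by
    change x.val * 1 * hc h 1 x.val = x.val
    rw [hc_of_commute (Commute.one_left _)]; simp
  inv_mul_cancel x := by
    change x.val⁻¹ * x.val * hc h x.val x.val⁻¹ = 1
    rw [hc_of_commute (Commute.refl _).inv_right]; simp
  mul_comm x y := by
    change x.val * y.val * hc h y.val x.val = y.val * x.val * hc h x.val y.val
    have : x.val * y.val = ⁅x.val, y.val⁆ * (y.val * x.val) := by
      rw [commutatorElement_def]; group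
    rw [this, ← hc_sq (h := h), cmove, mul_assoc, ← coe_mul, hc_swap x.val y.val,
      mul_inv_cancel_right]

theorem val_mul (x y : Baer h) : (x * y).val = x.val * y.val * hc h y.val x.val := rfl
theorem val_one : (1 : Baer h).val = 1 := rfl
theorem val_inv (x : Baer h) : (x⁻¹).val = x.val⁻¹ := rfl
theorem val_injective : Function.Injective (val : Baer h → G) := fun _ _ e => e
theorem val_mk (x : G) : (mk h x).val = x := rfl

theorem card_eq : Nat.card (Baer h) = Nat.card G := rfl

instance [Finite G] : Finite (Baer h) := ‹Finite G›

theorem val_pow (x : Baer h) (n : ℕ) : (x ^ n).val = x.val ^ n := by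
  induction n with
  | zero => rw [pow_zero, pow_zero, val_one]
  | succ n ih => rw [pow_succ, val_mul, ih, hc_of_commute ((Commute.refl _).pow_right n),
      OneMemClass.coe_one, mul_one, pow_succ]

/-- endomorphisms of `G` are endomorphisms of the Baer group. -/
noncomputable def map (h : BaerHyp G) (f : G →* G) : Baer h →* Baer h :=
  MonoidHom.mk' (fun x => mk h (f x.val)) fun x y => by
    apply val_injective
    rw [val_mk, val_mul, val_mul, map_mul, map_mul, val_mk, val_mk]
    congr 1
    unfold hc
    rw [coe_pow, coe_pow, map_pow, map_commutatorElement]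

theorem val_map (f : G →* G) (x : Baer h) : (map h f x).val = f x.val := rfl

end Baer

end Cfsg.Agent.H85
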