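import Cfsg.Agent.H85.L3K
import Cfsg.Agent.H10.UThreeB

/-! The classical subgroups `SL₃(q₀)`, `SU₃(q₀)`, `SO₃(q₀)` of `SL₃(q)`. -/

set_option autoImplicit false
set_option linter.unusedSectionVars false
set_option linter.style.haveILetI false

namespace Cfsg.Agent.H85.L3

open Cfsg Cfsg.Geo Cfsg.Agent.H98 Cfsg.Agent.H99 Matrix

variable {F : Type*} [Field F] [Fintype F]

local notation "𝐆" => GL (Fin 3) F
local notation "𝐙" => scalars (Fin 3) F
local notation "𝐒" => specialLinear (Fin 3) F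
local notation "𝐌" => Matrix (Fin 3) (Fin 3) F

theorem ring_top {R : Subring 𝐌} (h : ∀ c : F, single 0 1 c ∈ R ∧ single 1 0 c ∈ R ∧
    single 1 2 c ∈ R ∧ single 2 1 c ∈ R) (A : 𝐌) : A ∈ R := by
  have k : ∀ (i j k : Fin 3) (c : F), single i j c ∈ R → single j k (1 : F) ∈ R →
      single i k c ∈ R := fun i j k c h1 h2 => by
    simpa [single_mul_single_same] using R.mul_mem h1 h2
  rw [matrix_eq_sum_single A]
  refine R.sum_mem fun i _ => R.sum_mem fun j _ => ?_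
  generalize A i j = c
  fin_cases i <;> fin_cases j
  exacts [k _ 1 _ c (h c).1 (h 1).2.1, (h c).1, k _ 1 _ c (h c).1 (h 1).2.2.1, (h c).2.1,
    k _ 0 _ c (h c).2.1 (h 1).1, (h c).2.2.1, k _ 1 _ c (h c).2.2.2 (h 1).2.1, (h c).2.2.2,
    k _ 1 _ c (h c).2.2.2 (h 1).2.2.1]

theorem corner {R : Subring 𝐌} {d : F} (hd : d ≠ 0) (h0 : single 0 2 d ∈ R) (h2 : single 2 0 d⁻¹ ∈ R)
    {A : 𝐌} (hA : A ∈ R) (i j : Fin 3) : single i j (A i j) ∈ R := by
  have a0 := R.mul_mem h0 h2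
  have a2 := R.mul_mem h2 h0
  rw [single_mul_single_same] at a0 a2
  rw [mul_inv_cancel₀ hd] at a0
  rw [inv_mul_cancel₀ hd] at a2
  have k : ∀ i : Fin 3, single i i (1 : F) ∈ R := fun i => by
    fin_cases i
    · exact a0
    · convert R.sub_mem (R.sub_mem R.one_mem a0) a2
      ext i j; fin_cases i <;> fin_cases j <;> simp
    · exact a2
  simpa [single_mul_mul_single] using R.mul_mem (R.mul_mem (k i) hA) (k j)

theorem Gen.pb {X : Subgroup 𝐆} (h : Gen ⊤ X) (P : 𝐆) : Gen ⊤ (pb P X) := fun R hR A _ => by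
  have := h (R.comap (H98.cj P⁻¹).toRingEquiv.toRingHom) (fun g hg hp => by
    have h1 := hR _ (mem_pb_conj.2 hg) (by
      have h2 := conj_pow (i := ringChar F) (a := P⁻¹) (b := g)
      rw [inv_inv, hp] at h2
      simpa using h2)
    exact h1) (H98.cj P A) fun _ _ => trivial
  rw [← cj_inv_cj P A]
  exact this

theorem Big.mono {X Y : Subgroup 𝐆} (h : Big X) (hY : X ≤ Y) : Big Y :=
  let ⟨U, h1, h2⟩ := h; ⟨U, h1.trans hY, h2⟩

theorem Big.pb {X : Subgroup 𝐆} (h : Big X) (P : 𝐆) : Big (pb P X) :=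
  let ⟨U, h1, h2, h3⟩ := h
  ⟨L3.pb P U, pb_mono h1, h2.comap_of_injective _ (MulAut.conj P).injective, card_pb P U ▸ h3⟩

theorem T2.mono {X Y : Subgroup 𝐆} (h : T2 X) (hY : Y ≤ X) : T2 Y :=
  let ⟨P, h1⟩ := h; ⟨P, fun g hg => h1 g (hY hg)⟩

theorem T6.mono {X Y : Subgroup 𝐆} (h : T6 X) (hY : Y ≤ X) : T6 Y :=
  let ⟨ω, h0, P, h1⟩ := h; ⟨ω, h0, P, (pb_mono hY).trans h1⟩

theorem big_of_hom {A : Type*} [AddCommGroup A] [Module F A] {X : Subgroup 𝐆} (φ : A → 𝐆)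
    (h1 : ∀ a b, φ (a + b) = φ a * φ b) (h2 : Function.Injective φ) (h3 : ∀ a, φ a ∈ X)
    (h4 : 4 ≤ Nat.card A) : Big X := by
  let ψ : Multiplicative A →* 𝐆 := MonoidHom.mk' (fun a => φ a.toAdd) fun a b => h1 _ _
  refine ⟨ψ.range, by rintro _ ⟨a, rfl⟩; exact h3 _, ?_, ?_⟩
  · rintro ⟨_, a, rfl⟩
    refine ⟨1, Subtype.ext ?_⟩
    have : a ^ ringChar F = 1 := by
      apply Multiplicative.toAdd.injective
      rw [toAdd_pow, ← Nat.cast_smul_eq_nsmul F, ringChar.Nat.cast_ringChar, zero_smul, toAdd_one]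
    simp [← map_pow, this]
  · rwa [← Nat.card_congr (MonoidHom.ofInjective (f := ψ) fun a b e => h2 e).toEquiv]

/-! ### Extension of scalars -/

section Map

variable {F₀ : Subfield F} [Fintype F₀] {Y : Subgroup (GL (Fin 3) F₀)} {X : Subgroup (GL (Fin 3) F)}

/-- extension of scalars -/
noncomputable abbrev mp (F₀ : Subfield F) : GL (Fin 3) F₀ →* 𝐆 := GeneralLinearGroup.map F₀.subtype

theorem mp_inj : Function.Injective (mp F₀) := fun a b e => by
  ext i j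
  have : ((mp F₀ a : 𝐆) : 𝐌) = mp F₀ b := by rw [e]
  exact congrFun (congrFun this i) j

theorem ringChar_sub : ringChar F₀ = ringChar F := Algebra.ringChar_eq F₀ F

theorem Gen.map (h : Gen ⊤ Y) (hX : ∀ g ∈ Y, mp F₀ g ∈ X) : Gen F₀ X := fun R hR A hA =>
  h (R.comap F₀.subtype.mapMatrix) (fun g hg hp => hR _ (hX g hg) (by
    rw [← map_pow, ← ringChar_sub (F₀ := F₀), hp, map_one])) (Matrix.of fun i j => ⟨A i j, hA i j⟩)
    fun _ _ => trivial

theorem Big.map (h : Big Y) (hX : ∀ g ∈ Y, mp F₀ g ∈ X) : Big X :=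
  let ⟨U, h1, h2, h3⟩ := h
  ⟨U.map (mp F₀), by rintro _ ⟨g, hg, rfl⟩; exact hX g (h1 hg),
    ringChar_sub (F₀ := F₀) ▸ h2.map _, by rwa [Subgroup.card_map_of_injective mp_inj]⟩

theorem mp_mem_sl {g : GL (Fin 3) F₀} (hg : g ∈ specialLinear (Fin 3) F₀) : mp F₀ g ∈ 𝐒 :=
  mem_sl.2 ((F₀.subtype.map_det (g : Matrix (Fin 3) (Fin 3) F₀)).symm.trans
    (by rw [mem_sl.1 hg, map_one]))

theorem mp_mem_sub (g : GL (Fin 3) F₀) : mp F₀ g ∈ subfieldSubgroup F₀ 1 :=
  mem_sub_iff.2 ⟨1, one_ne_zero, mem_SR_one.2 fun i j => by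
    rw [one_smul]; exact ((g : Matrix (Fin 3) (Fin 3) F₀) i j).2⟩

theorem sub_mp (Q : GL (Fin 3) F₀) : subfieldSubgroup F₀ (mp F₀ Q) = subfieldSubgroup F₀ 1 := by
  have := pb_sub F₀ 1 (mp F₀ Q)⁻¹
  rw [inv_inv, mul_one] at this
  rw [← this]
  ext g
  rw [mem_pb, Subgroup.mul_mem_cancel_right _ (inv_mem (inv_mem (mp_mem_sub Q))),
    Subgroup.mul_mem_cancel_left _ (inv_mem (mp_mem_sub Q))]

end Map

/-! ### Forms -/

section Form

variable {σ : F ≃+* F}

theorem mem_iso_gram {G : 𝐌} {g : 𝐆} :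
    g ∈ H10.isoG (formOfGram σ G) ↔ (g : 𝐌)ᵀ * G * (g : 𝐌).map σ = G := by
  simp only [H10.mem_isoG, H10.formOfGram_mulVec]
  refine ⟨fun h => ?_, fun h u v => by rw [h]⟩
  have h1 := gramMatrix_formOfGram σ ((g : 𝐌)ᵀ * G * (g : 𝐌).map σ) 1
  simp only [h, gramMatrix_formOfGram, one_smul] at h1
  exact h1.symm

theorem pb_sim {f f' : (Fin 3 → F) → (Fin 3 → F) → F} {P : 𝐆} {c : F} (hc : c ≠ 0)
    (h : ∀ x y, f ((P : 𝐌) *ᵥ x) ((P : 𝐌) *ᵥ y) = c * f' x y) :
    pb P (similarityGroup f) = similarityGroup f' := by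
  ext g
  rw [mem_pb_sim, mem_similarityGroup, mem_similarityGroup]
  simp only [h, mul_left_comm _ c, mul_right_inj' hc]

theorem pb_iso {f f' : (Fin 3 → F) → (Fin 3 → F) → F} {P : 𝐆} {c : F} (hc : c ≠ 0)
    (h : ∀ x y, f ((P : 𝐌) *ᵥ x) ((P : 𝐌) *ᵥ y) = c * f' x y) :
    pb P (H10.isoG f) = H10.isoG f' := by
  ext g
  rw [mem_pb, H10.mem_isoG, H10.mem_isoG]
  refine ⟨fun k u v => ?_, fun k u v => ?_⟩
  · have := k ((P : 𝐌) *ᵥ u) ((P : 𝐌) *ᵥ v)
    rwa [conj_mulVec_mulVec, conj_mulVec_mulVec, h, h, mul_right_inj' hc] at this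
  · rw [← mulVec_inv_mulVec P u, ← mulVec_inv_mulVec P v, conj_mulVec_mulVec, conj_mulVec_mulVec,
      h, h, k]

theorem isSesq_gram (hσ : ∀ a, σ (σ a) = a) {G : 𝐌} (h1 : ∀ i j, σ (G i j) = G j i)
    (h2 : G.det ≠ 0) : IsSesq σ 1 (formOfGram σ G) := by
  have hh : ∀ v w, formOfGram σ G v w = 1 * σ (formOfGram σ G w v) := fun v w => by
    simp only [formOfGram, map_sum, map_mul, hσ, h1, one_mul]
    rw [Finset.sum_comm]
    exact Finset.sum_congr rfl fun a _ => Finset.sum_congr rfl fun b _ => by ring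
  have hn : ∀ v, v ≠ 0 → ∃ x, formOfGram σ G x v ≠ 0 := fun v hv => by
    by_contra hc
    push Not at hc
    have h3 : G *ᵥ (fun i => σ (v i)) = 0 := funext fun i => by
      simpa [H10.formOfGram_eq_dot] using hc (Pi.single i 1)
    exact hv (funext fun i => by simpa using congrFun (eq_zero_of_mulVec_eq_zero h2 h3) i)
  refine ⟨hσ, Or.inl rfl, fun x y v => ?_, fun c x v => ?_, hh, fun v hv => ⟨hn v hv, ?_⟩⟩
  · simp [H10.formOfGram_eq_dot]
  · simp [H10.formOfGram_eq_dot]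
  · obtain ⟨x, hx⟩ := hn v hv
    exact ⟨x, by rw [hh]; simpa using hx⟩

theorem gram_one : formOfGram σ (1 : 𝐌) = sumHerm (Fin 3) σ :=
  funext fun x => funext fun y => H10.formOfGram_one σ x y

theorem isSesq_sum (hσ : ∀ a, σ (σ a) = a) : IsSesq σ 1 (sumHerm (Fin 3) σ) :=
  gram_one (σ := σ) ▸ isSesq_gram hσ (fun i j => by
    rw [one_apply, one_apply, apply_ite σ, map_one, map_zero]; simp only [eq_comm]) (by simp)

theorem exists_frame_form {f : (Fin 3 → F) → (Fin 3 → F) → F} (hf : IsSesq σ 1 f)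
    (h2 : σ = RingEquiv.refl F → (2 : F) ≠ 0) : ∃ (P : 𝐆) (c : F), c ≠ 0 ∧
      ∀ x y, f ((P : 𝐌) *ᵥ x) ((P : 𝐌) *ᵥ y) = c * sumHerm (Fin 3) σ x y := by
  by_cases h : σ = RingEquiv.refl F
  · subst h
    have hd := hf.isUnit_det_gram.ne_zero
    obtain ⟨Q, c, c0, hQ⟩ := H10.exists_sim_orthonormal (h2 rfl) (G := gramMatrix f)
      (by simpa using hf.gram_transpose) hd
    refine ⟨mk3 Q fun h => ?_, c, c0, fun x y => ?_⟩
    · have := congrArg det hQ
      simp [h] at this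
      exact pow_ne_zero 3 c0 this.symm
    · rw [hf.eq_formOfGram, H10.formOfGram_mulVec, coe_mk3, show Q.map (RingEquiv.refl F) = Q from rfl,
        hQ, ← gram_one]
      rw [H10.formOfGram_eq_dot, H10.formOfGram_eq_dot, smul_mulVec, dotProduct_smul, smul_eq_mul]
  · obtain ⟨q, hq, rfl⟩ := exists_q h hf.invol
    obtain ⟨P, hP⟩ := H10.exists_isONF hf (Equiv.refl _)
    exact ⟨P, 1, one_ne_zero, fun x y => (hP x y).trans (one_mul _).symm⟩

/-- the special isometry group of the standard form -/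
def SUs (σ : F ≃+* F) : Subgroup 𝐆 := H10.isoG (sumHerm (Fin 3) σ) ⊓ 𝐒

theorem mem_SUs {g : 𝐆} : g ∈ SUs σ ↔ (g : 𝐌)ᵀ * (g : 𝐌).map σ = 1 ∧ g ∈ 𝐒 := by
  rw [SUs, ← gram_one, Subgroup.mem_inf, mem_iso_gram, mul_one]

theorem SUs_sig {q : ℕ} [Fact (Fintype.card F = q ^ 2)] : SUs (H10.sig F q) = H10.SUG 3 F q := rfl

theorem SUs_le : SUs σ ≤ similarityGroup (sumHerm (Fin 3) σ) ⊓ 𝐒 :=
  inf_le_inf_right _ (H10.fixes_isoG _).le_similarityGroup

theorem exists_pb_gram (hσ : ∀ a, σ (σ a) = a) (h2 : σ = RingEquiv.refl F → (2 : F) ≠ 0) {G : 𝐌}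
    (h1 : ∀ i j, σ (G i j) = G j i) (h0 : G.det ≠ 0) :
    ∃ P, SUs σ = pb P (H10.isoG (formOfGram σ G) ⊓ 𝐒) := by
  obtain ⟨P, c, c0, hP⟩ := exists_frame_form (isSesq_gram hσ h1 h0) h2
  exact ⟨P, by rw [pb_inf, pb_sl, pb_iso c0 hP, SUs]⟩

theorem mp_mem_SUs {F₀ : Subfield F} [Fintype F₀] {τ : F₀ ≃+* F₀} (h : ∀ x, (τ x : F) = σ x)
    {g : GL (Fin 3) F₀} (hg : g ∈ SUs τ) : mp F₀ g ∈ SUs σ := by
  rw [mem_SUs] at hg ⊢
  refine ⟨?_, mp_mem_sl hg.2⟩
  have := congrArg F₀.subtype.mapMatrix hg.1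
  rw [map_mul, map_one] at this
  rw [← this]
  congr 1
  ext i j
  exact (h _).symm

end Form

/-! ### An involution -/

theorem det_sM : (!![0, 1, 0; 1, 0, 0; 0, 0, -1] : 𝐌).det = 1 := by simp [det_fin_three]

/-- an involution -/
noncomputable def sG (F : Type*) [Field F] [Fintype F] : GL (Fin 3) F := mk1 _ det_sM

theorem sG_sq : sG F * sG F = 1 := by
  apply Units.ext; rw [Units.val_mul, sG, coe_mk1]
  ext i j; fin_cases i <;> fin_cases j <;> simp

theorem not_noInv_s {X : Subgroup 𝐆} (h : sG F ∈ X) : ¬ NoInv X := fun hn => by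
  have : ((sG F : 𝐆) : 𝐌) = 1 := by rw [hn _ h sG_sq, Units.val_one]
  simpa [sG, coe_mk1] using congrFun (congrFun this 0) 0

theorem sG_mem (σ : F ≃+* F) : sG F ∈ SUs σ := mem_SUs.2 ⟨by
  rw [sG, coe_mk1]; ext i j
  fin_cases i <;> fin_cases j <;> simp [Matrix.mul_apply, Fin.sum_univ_three], mk1_mem _ _⟩

theorem yG_mem (σ : F ≃+* F) : yG F ∈ SUs σ := mem_SUs.2 ⟨by
  rw [yG, coe_mk1]; ext i j
  fin_cases i <;> fin_cases j <;> simp [yM, Matrix.mul_apply, Fin.sum_univ_three], mk1_mem _ _⟩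

theorem sG_mem_sub (F₀ : Subfield F) : sG F ∈ subfieldSubgroup F₀ 1 :=
  mem_sub_iff.2 ⟨1, one_ne_zero, mem_SR_one.2 fun i j => by
    rw [one_smul, sG, coe_mk1]; fin_cases i <;> fin_cases j <;> simp⟩

/-! ### `SL₃` -/

theorem et_char {i j : Fin 3} (hij : i ≠ j) (c : F) : et hij c ^ ringChar F = 1 := by
  rw [et_pow, ringChar.Nat.cast_ringChar, zero_mul]
  apply Units.ext; rw [coe_et]; simp

theorem gen_sl : Gen ⊤ 𝐒 := fun R hR A _ => by
  have k : ∀ i j : Fin 3, i ≠ j → ∀ c : F, single i j c ∈ R := fun i j hij c => by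
    simpa [coe_et] using R.sub_mem (hR _ (et_mem_sl hij c) (et_char hij c)) R.one_mem
  exact ring_top (fun c => ⟨k _ _ (by decide) c, k _ _ (by decide) c, k _ _ (by decide) c,
    k _ _ (by decide) c⟩) A

theorem big_sl : Big 𝐒 := by
  refine big_of_hom (A := F × F) (fun a => mk1 !![1, a.1, a.2; 0, 1, 0; 0, 0, 1] (by
    simp [det_fin_three])) (fun a b => Units.ext ?_) (fun a b e => ?_) (fun a => mk1_mem _ _) ?_
  · rw [Units.val_mul, coe_mk1, coe_mk1, coe_mk1]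
    ext i j; fin_cases i <;> fin_cases j <;> simp [add_comm]
  · have := congrArg Units.val e
    exact Prod.ext (congrFun (congrFun this 0) 1) (congrFun (congrFun this 0) 2)
  · rw [Nat.card_prod, Nat.card_eq_fintype_card]
    nlinarith [Fintype.one_lt_card (α := F)]

/-! ### `SO₃` -/

theorem det_uM (t : F) : (!![1, 2 * t, t ^ 2; 0, 1, t; 0, 0, 1] : 𝐌).det = 1 := by
  simp [det_fin_three]

theorem det_lM (t : F) : (!![1, 0, 0; t, 1, 0; t ^ 2, 2 * t, 1] : 𝐌).det = 1 := by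
  simp [det_fin_three]

theorem char_of_add {φ : F → 𝐆} (h : ∀ a b, φ (a + b) = φ a * φ b) (t : F) :
    φ t ^ ringChar F = 1 := by
  have h0 : φ 0 = 1 := by simpa using h 0 0
  have k : ∀ n : ℕ, φ t ^ n = φ (n * t) := fun n => by
    induction n with
    | zero => simp [h0]
    | succ n ih => rw [pow_succ, ih, ← h]; congr 1; push_cast; ring
  rw [k, ringChar.Nat.cast_ringChar, zero_mul, h0]

theorem so_aux (h2 : (2 : F) ≠ 0) : Gen ⊤ (SUs (RingEquiv.refl F)) ∧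
    (4 ≤ Fintype.card F → Big (SUs (RingEquiv.refl F))) := by
  obtain ⟨P, hP⟩ := exists_pb_gram (σ := RingEquiv.refl F) (fun _ => rfl) (fun _ => h2)
    (G := !![0, 0, -1; 0, 2, 0; -1, 0, 0]) (fun i j => by fin_cases i <;> fin_cases j <;> simp)
    (by simpa [det_fin_three] using h2)
  have u1 : ∀ a b : F, mk1 _ (det_uM (a + b)) = mk1 _ (det_uM a) * mk1 _ (det_uM b) := fun a b => by
    apply Units.ext
    rw [Units.val_mul, coe_mk1, coe_mk1, coe_mk1]
    ext i j; fin_cases i <;> fin_cases j <;> simp <;> ring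
  have l1 : ∀ a b : F, mk1 _ (det_lM (a + b)) = mk1 _ (det_lM a) * mk1 _ (det_lM b) := fun a b => by
    apply Units.ext
    rw [Units.val_mul, coe_mk1, coe_mk1, coe_mk1]
    ext i j; fin_cases i <;> fin_cases j <;> simp <;> ring
  have u2 : ∀ a : F, mk1 _ (det_uM a) ∈ H10.isoG (formOfGram (RingEquiv.refl F)
      !![0, 0, -1; 0, 2, 0; -1, 0, 0]) ⊓ 𝐒 := fun a => ⟨mem_iso_gram.2 (by
    rw [coe_mk1]
    ext i j; fin_cases i <;> fin_cases j <;> simp [Matrix.mul_apply, Fin.sum_univ_three] <;> ring),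
    mk1_mem _ _⟩
  have l2 : ∀ a : F, mk1 _ (det_lM a) ∈ H10.isoG (formOfGram (RingEquiv.refl F)
      !![0, 0, -1; 0, 2, 0; -1, 0, 0]) ⊓ 𝐒 := fun a => ⟨mem_iso_gram.2 (by
    rw [coe_mk1]
    ext i j; fin_cases i <;> fin_cases j <;> simp [Matrix.mul_apply, Fin.sum_univ_three] <;> ring),
    mk1_mem _ _⟩
  rw [hP]
  refine ⟨Gen.pb (fun R hR A _ => ?_) P, fun h4 => Big.pb (big_of_hom _ u1 (fun a b e =>
    congrArg (fun g : 𝐆 => (g : 𝐌) 1 2) e) u2 (by simpa using h4)) P⟩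
  have u3 := fun a => hR _ (u2 a) (char_of_add (φ := fun t => mk1 _ (det_uM t)) u1 a)
  have l3 := fun a => hR _ (l2 a) (char_of_add (φ := fun t => mk1 _ (det_lM t)) l1 a)
  simp only [coe_mk1] at u3 l3
  have k := fun A hA => corner (R := R) (A := A) h2 (by
    convert R.mul_mem (R.sub_mem (u3 1) R.one_mem) (R.sub_mem (u3 1) R.one_mem)
    ext i j; fin_cases i <;> fin_cases j <;> simp [Matrix.mul_apply, Fin.sum_univ_three]) (by
    convert R.mul_mem (R.sub_mem (l3 2⁻¹) R.one_mem) (R.sub_mem (l3 2⁻¹) R.one_mem)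
    ext i j; fin_cases i <;> fin_cases j <;> simp [Matrix.mul_apply, Fin.sum_univ_three, h2]) hA
  refine ring_top (fun c => ⟨?_, k _ (l3 c) 1 0, k _ (u3 c) 1 2, ?_⟩) A
  · simpa [h2] using k _ (u3 (2⁻¹ * c)) 0 1
  · simpa [h2] using k _ (l3 (2⁻¹ * c)) 2 1

/-! ### `SU₃` -/

section SU

variable {q : ℕ} [hF : Fact (Fintype.card F = q ^ 2)]

local notation "σ" => H10.cj F q

theorem big_su : Big (H10.SUG 3 F q) := by
  obtain ⟨n, hp, hn⟩ := FiniteField.card F (ringChar F)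
  haveI := Fact.mk hp
  have h1 : ringChar F ∣ q := hp.prime.dvd_of_dvd_pow (n := 2)
    (by rw [← hF.out, hn]; exact dvd_pow_self _ n.ne_zero)
  have h2 := H10.card_SUG_mul (F := F) (q := q) (n := 3) (by norm_num)
  simp [Finset.prod_range_succ] at h2
  have h3 : Nat.card (H10.SUG 3 F q) = q ^ 3 * ((q ^ 2 - 1) * (q ^ 3 + 1)) :=
    Nat.eq_of_mul_eq_mul_left (Nat.succ_pos q) (by simpa [mul_assoc, mul_left_comm] using h2)
  obtain ⟨U, hU⟩ := Sylow.exists_subgroup_card_pow_prime (G := H10.SUG 3 F q) (ringChar F) (n := 2)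
    (h3 ▸ ((pow_dvd_pow_of_dvd h1 2).trans (pow_dvd_pow q (by norm_num))).mul_right _)
  refine ⟨U.map (Subgroup.subtype _), Subgroup.map_subtype_le _, (IsPGroup.of_card hU).map _, ?_⟩
  rw [Subgroup.card_map_of_injective (Subgroup.subtype_injective _), hU]
  nlinarith [hp.two_le]

theorem gen_su : Gen ⊤ (H10.SUG 3 F q) := by
  obtain ⟨P, hP⟩ := exists_pb_gram (F := F) (H10.sig_sig (q := q))
    (fun h => absurd h H10.sig_ne_refl)
    (G := !![0, 0, 1; 0, 1, 0; 1, 0, 0]) (fun i j => by fin_cases i <;> fin_cases j <;> simp)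
    (by simp [det_fin_three])
  rw [← SUs_sig, hP]
  refine Gen.pb (fun R hR A _ => ?_) P
  have k : ∀ a b c d : F, a * σ c + b * σ b + c * σ a = 0 → σ d = -d →
      d • vecMulVec ![a, b, c] ![σ c, σ b, σ a] ∈ R := fun a b c d h hd => by
    have hN : (d • vecMulVec ![a, b, c] ![σ c, σ b, σ a]) * (d • vecMulVec ![a, b, c] ![σ c, σ b, σ a])
        = 0 := by
      rw [smul_mul_smul_comm, vecMulVec_mul_vecMulVec]
      simp only [dotProduct, Fin.sum_univ_three, cons_val]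
      rw [show σ c * a + σ b * b + σ a * c = 0 by linear_combination h]
      simp
    have := hR (mk1 (1 + d • vecMulVec ![a, b, c] ![σ c, σ b, σ a]) (by
      simp [det_fin_three]; linear_combination d * h)) ⟨mem_iso_gram.2 (by
        rw [coe_mk1]
        ext i j
        fin_cases i <;> fin_cases j <;>
          simp [Matrix.mul_apply, Fin.sum_univ_three, H10.sig_apply, hd, H10.cj_cj]
        · linear_combination -d ^ 2 * c * σ c * h
        · linear_combination -d ^ 2 * b * σ c * h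
        · linear_combination -d ^ 2 * a * σ c * h
        · linear_combination -d ^ 2 * c * σ b * h
        · linear_combination -d ^ 2 * b * σ b * h
        · linear_combination -d ^ 2 * a * σ b * h
        · linear_combination -d ^ 2 * c * σ a * h
        · linear_combination -d ^ 2 * b * σ a * h
        · linear_combination -d ^ 2 * a * σ a * h), mk1_mem _ _⟩ (by
      apply Units.ext
      rw [Units.val_pow_eq_pow_val, coe_mk1]
      generalize d • vecMulVec ![a, b, c] ![σ c, σ b, σ a] = N at hN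
      have : ∀ n : ℕ, (1 + N) ^ n = 1 + (n : F) • N := fun n => by
        induction n with
        | zero => simp
        | succ n ih =>
          rw [pow_succ, ih, add_mul, mul_add, mul_add, smul_mul_assoc, smul_mul_assoc, hN]
          simp only [mul_one, one_mul, smul_zero, add_zero, Nat.cast_succ, add_smul, one_smul]
          abel
      rw [this, ringChar.Nat.cast_ringChar]; simp)
    simpa [coe_mk1] using R.sub_mem this R.one_mem
  obtain ⟨d, d0, hd⟩ := H10.exists_skew F q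
  have k2 := fun A hA => corner (R := R) (A := A) d0 (by
    convert k 1 0 0 d (by simp) hd
    ext i j; fin_cases i <;> fin_cases j <;> simp) (by
    convert k 0 0 1 d⁻¹ (by simp) (by rw [map_inv₀, hd, inv_neg])
    ext i j; fin_cases i <;> fin_cases j <;> simp) hA
  have k3 : ∀ a : F, single 0 1 (d * σ a) ∈ R ∧ single 1 0 (d * a) ∈ R ∧ single 1 2 (d * a) ∈ R ∧
      single 2 1 (d * σ a) ∈ R := fun a => by
    obtain ⟨b, hb⟩ := H10.exists_trace_eq (q := q) (t := -(a * σ a)) (by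
      rw [map_neg, map_mul, H10.cj_cj, mul_comm])
    have a1 := k2 _ (k 1 a b d (by rw [map_one]; linear_combination hb) hd)
    have a2 := k2 _ (k b a 1 d (by rw [map_one]; linear_combination hb) hd)
    exact ⟨by simpa [vecMulVec_apply] using a1 0 1, by simpa [vecMulVec_apply] using a2 1 0,
      by simpa [vecMulVec_apply] using a1 1 2, by simpa [vecMulVec_apply] using a2 2 1⟩
  refine ring_top (fun c => ?_) A
  have a1 := k3 (d⁻¹ * c)
  have a2 := k3 (σ (d⁻¹ * c))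
  rw [H10.cj_cj] at a2
  rw [mul_inv_cancel_left₀ d0] at a1 a2
  exact ⟨a2.1, a1.2.1, a1.2.2.1, a2.2.2.2⟩

end SU

theorem sus_aux {σ : F ≃+* F} (h : ∀ a, σ (σ a) = a) (h2 : σ = RingEquiv.refl F → (2 : F) ≠ 0) :
    Gen ⊤ (SUs σ) ∧ (4 ≤ Fintype.card F → Big (SUs σ)) := by
  by_cases h1 : σ = RingEquiv.refl F
  · subst h1; exact so_aux (h2 rfl)
  · obtain ⟨q, hq, rfl⟩ := exists_q h1 h
    exact ⟨gen_su, fun _ => big_su⟩

/-! ### Consequences -/

theorem Gen.not_t6 {F₀ : Subfield F} {X : Subgroup 𝐆} (h : Gen F₀ X) (hp : 5 ≤ ringChar F) :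
    ¬ T6 X := fun ht => by
  obtain ⟨g, hg, h1, h2⟩ := h.exists_p
  have hq := CharP.char_is_prime F (ringChar F)
  refine h2 ((pow_eq_one_iff_of_coprime (m := ringChar F) (n := 36) ?_).1 ⟨h1, ht.pow36 hg⟩)
  rw [show 36 = 2 ^ 2 * 3 ^ 2 from rfl]
  exact Nat.Coprime.mul_right
    (Nat.Coprime.pow_right _ ((Nat.coprime_primes hq Nat.prime_two).2 (by omega)))
    (Nat.Coprime.pow_right _ ((Nat.coprime_primes hq Nat.prime_three).2 (by omega)))

theorem Gen.not_pgc {F₀ : Subfield F} {X : Subgroup 𝐆} (h : Gen F₀ X) {k : ℕ}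
    (hp : ¬ ringChar F ∣ (k - 1) * k * (k + 1)) : ¬ PGc k X := fun ht => by
  obtain ⟨g, hg, h1, h2⟩ := h.exists_p
  have hq := (CharP.char_is_prime F (ringChar F)).coprime_iff_not_dvd.2 hp
  refine h2 (eq_one_of_scalar (mem_Z_of_pow hq (h1 ▸ one_mem _) ?_) h1)
  rcases ht.p1 g hg with e | e | e
  · rw [mul_assoc, pow_mul]; exact pow_mem e _
  · rw [mul_right_comm, mul_comm, pow_mul]; exact pow_mem e _
  · rw [mul_comm, pow_mul]; exact pow_mem e _

theorem subfield_eq {F₀ F₁ : Subfield F} {r s : ℕ} (hr : r.Prime) (hs : s.Prime)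
    (h0 : Fintype.card F = Nat.card F₀ ^ r) (h1 : Fintype.card F = Nat.card F₁ ^ s) (h : F₀ ≤ F₁) :
    F₀ = F₁ := by
  have h2 := Subfield.relfinrank_mul_finrank_top h
  rw [H10.finrank_eq_of_card h0, H10.finrank_eq_of_card h1] at h2
  obtain rfl : s = r := (Nat.prime_dvd_prime_iff_eq hs hr).1 ⟨_, by rw [← h2, mul_comm]⟩
  apply SetLike.coe_injective
  exact Set.eq_of_subset_of_ncard_le h (le_of_eq (Nat.pow_left_injective hs.ne_zero (h1.symm.trans h0)))

theorem sub_ne_top {F₁ : Subfield F} {s : ℕ} (hs : s.Prime) (h1 : Fintype.card F = Nat.card F₁ ^ s) :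
    ¬ ⊤ ≤ F₁ := fun h => by
  obtain rfl := top_le_iff.1 h
  rw [Nat.card_congr Subfield.topEquiv.toEquiv, Nat.card_eq_fintype_card] at h1
  have := Nat.pow_lt_pow_right (Fintype.one_lt_card (α := F)) hs.one_lt
  rw [pow_one] at this
  omega

theorem et_mem_sub {F₀ : Subfield F} {i j : Fin 3} (hij : i ≠ j) : et hij (1 : F) ∈ subfieldSubgroup F₀ 1 :=
  mem_sub_iff.2 ⟨1, one_ne_zero, by
    rw [one_smul, coe_et]
    exact (SR F₀ 1).add_mem (one_mem _) (mem_SR_one.2 (single_mem F₀ i j F₀.one_mem))⟩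

theorem sub_not_t8 {F₀ : Subfield F} {σ : F ≃+* F} : ¬ T8 σ (subfieldSubgroup F₀ 1 ⊓ 𝐒) := by
  rintro ⟨f, hf, h⟩
  have k : ∀ {i j : Fin 3} (hij : i ≠ j), et hij (1 : F) ∈ PL (subfieldSubgroup F₀ 1 ⊓ 𝐒) :=
    fun hij => mem_PL ⟨et_mem_sub hij, et_mem_sl hij 1⟩ (et_char hij 1)
  have := trace_inv_of_fixes hf (Gen.fixes hf h) (mul_mem (mul_mem (k (i := 0) (j := 1) (by decide))
    (k (i := 1) (j := 2) (by decide))) (k (i := 2) (j := 0) (by decide)))
  simp only [_root_.mul_inv_rev, Units.val_mul, coe_et, coe_et_inv] at this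
  simp [trace_fin_three, Matrix.mul_apply, Fin.sum_univ_three, one_apply] at this

theorem sub_not_pgc {F₀ : Subfield F} (h2 : (2 : F) = 0) : ¬ PGc 9 (subfieldSubgroup F₀ 1 ⊓ 𝐒) := by
  intro h
  let g : 𝐆 := mk1 !![0, 0, 1; 1, 0, 1; 0, 1, 0] (by simp [det_fin_three])
  have hg : g ∈ subfieldSubgroup F₀ 1 ⊓ 𝐒 := ⟨mem_sub_iff.2 ⟨1, one_ne_zero, mem_SR_one.2 fun i j => by
    rw [one_smul, coe_mk1]; fin_cases i <;> fin_cases j <;> simp⟩, mk1_mem _ _⟩
  have h7 : g ^ 7 ∈ 𝐙 := by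
    refine mem_scalars_of_coe_eq (c := 1) ?_
    rw [Units.val_pow_eq_pow_val, coe_mk1]
    ext i j
    fin_cases i <;> fin_cases j <;> simp [pow_succ] <;>
      first | linear_combination h2 | linear_combination 2 * h2
  have h1 : g ∈ 𝐙 := by
    rcases h.p1 g hg with e | e | e <;> exact mem_Z_of_pow (by norm_num) h7 e
  obtain ⟨c, hc⟩ := (mem_scalars_iff g).1 h1
  simpa [g, coe_mk1] using congrFun (congrFun hc 1) 0

theorem sub_lie (F₀ : Subfield F) : Gen F₀ (subfieldSubgroup F₀ 1 ⊓ 𝐒) ∧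
    Big (subfieldSubgroup F₀ 1 ⊓ 𝐒) := by
  haveI := Fintype.ofFinite F₀
  exact ⟨gen_sl.map fun g hg => ⟨mp_mem_sub g, mp_mem_sl hg⟩,
    big_sl.map fun g hg => ⟨mp_mem_sub g, mp_mem_sl hg⟩⟩

section SUsub

variable {q : ℕ} [hF : Fact (Fintype.card F = q ^ 2)]

theorem exists_res (F₀ : Subfield F) : ∃ τ : F₀ ≃+* F₀, ∀ x, (τ x : F) = H10.sig F q x := by
  let φ : F₀ →+* F₀ := (H10.cj F q).restrict F₀ F₀ fun x hx => F₀.pow_mem hx q
  exact ⟨RingEquiv.ofBijective φ (Finite.injective_iff_bijective.1 φ.injective), fun _ => rfl⟩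

theorem frame_sub {F₀ : Subfield F} {P : 𝐆} (hP : IsFormRationalStructure (hermForm 3 F q) F₀ 1 P)
    (h2 : (∀ x ∈ F₀, H10.sig F q x = x) → (2 : F) ≠ 0) (h4 : 4 ≤ Nat.card F₀) :
    ∃ Q ∈ GU 3 F q, subfieldSubgroup F₀ Q = subfieldSubgroup F₀ P ∧
      Gen F₀ (subfieldSubgroup F₀ 1 ⊓ H10.SUG 3 F q) ∧ Big (subfieldSubgroup F₀ 1 ⊓ H10.SUG 3 F q) := by
  haveI := Fintype.ofFinite F₀
  obtain ⟨τ, hτ⟩ := exists_res (q := q) F₀
  have t1 : ∀ a, τ (τ a) = a := fun a => Subtype.ext (by rw [hτ, hτ, H10.sig_sig])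
  have t2 : τ = RingEquiv.refl F₀ → (2 : F₀) ≠ 0 := fun e h0 =>
    h2 (fun x hx => by rw [← hτ ⟨x, hx⟩, e]; rfl) (congrArg Subtype.val h0)
  let G : 𝐌 := (P : 𝐌)ᵀ * (P : 𝐌).map (H10.sig F q)
  have hG : ∀ i j, G i j ∈ F₀ := fun i j => by
    have := hP _ _ (H10.single_mem_subfield F₀ i) (H10.single_mem_subfield F₀ j)
    rw [one_mul, mulVec_single_one, mulVec_single_one] at this
    exact this
  let G₀ : Matrix (Fin 3) (Fin 3) F₀ := Matrix.of fun i j => ⟨G i j, hG i j⟩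
  have hG₀ : F₀.subtype.mapMatrix G₀ = G := rfl
  obtain ⟨Q, c, c0, hQ⟩ := exists_frame_form (isSesq_gram (G := G₀) t1 (fun i j => Subtype.ext (by
    rw [hτ]
    change H10.sig F q (G i j) = G j i
    simp [G, Matrix.mul_apply, mul_comm, H10.sig_sig])) fun h => by
      have h1 := congrArg F₀.subtype h
      rw [RingHom.map_det, hG₀, map_zero, det_mul, det_transpose, ← RingEquiv.mapMatrix_apply,
        ← RingEquiv.map_det] at h1
      exact mul_ne_zero P.det_ne_zero ((map_ne_zero _).2 P.det_ne_zero) h1) t2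
  have h3 : (Q : Matrix (Fin 3) (Fin 3) F₀)ᵀ * G₀ * (Q : Matrix (Fin 3) (Fin 3) F₀).map τ = c • 1 := by
    simp only [H10.formOfGram_mulVec, ← gram_one] at hQ
    have := gramMatrix_formOfGram τ ((Q : Matrix (Fin 3) (Fin 3) F₀)ᵀ * G₀ *
      (Q : Matrix (Fin 3) (Fin 3) F₀).map τ) 1
    simp only [hQ, one_mul, gramMatrix_formOfGram, one_smul] at this
    exact this.symm
  have h5 : ((P * mp F₀ Q : 𝐆) : 𝐌)ᵀ * ((P * mp F₀ Q : 𝐆) : 𝐌).map (H10.sig F q) = (c : F) • 1 := by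
    have := congrArg F₀.subtype.mapMatrix h3
    rw [map_mul, map_mul, hG₀] at this
    rw [Units.val_mul, transpose_mul, Matrix.map_mul, mul_assoc, ← mul_assoc (P : 𝐌)ᵀ, ← mul_assoc]
    convert this using 2
    · rfl
    · ext i j; exact (hτ _).symm
    · ext i j; by_cases h : i = j <;> simp [one_apply, h]
  have c1 : (c : F) ≠ 0 := fun h => c0 (Subtype.ext h)
  obtain ⟨l, hl⟩ := H10.exists_norm_eq (F := F) (q := q) (t := (c : F)⁻¹) (by
    have := congrFun (congrFun h5 0) 0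
    simp only [Matrix.mul_apply, transpose_apply, map_apply, Matrix.smul_apply, one_apply_eq, smul_eq_mul,
      mul_one, H10.sig_apply] at this
    rw [map_inv₀, ← this]
    simp only [map_sum, map_mul, H10.cj_cj, mul_comm])
  have l0 : l ≠ 0 := by rintro rfl; exact inv_ne_zero c1 (by simpa using hl.symm)
  obtain ⟨a, b⟩ := sus_aux t1 t2
  refine ⟨P * mp F₀ Q * scal (Fin 3) (Units.mk0 l l0), (H10.mem_GU_iff _).2 ((H10.isIsom_iff _).2 ?_), ?_,
    a.map fun g hg => ⟨mp_mem_sub g, mp_mem_SUs hτ hg⟩,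
    (b (by simpa using h4)).map fun g hg => ⟨mp_mem_sub g, mp_mem_SUs hτ hg⟩⟩
  · rw [Units.val_mul, coe_scal, mul_smul_comm, mul_one, Matrix.map_smul' _ _ _ (map_mul _),
      transpose_smul, smul_mul_smul_comm]
    erw [h5]
    rw [Units.val_mk0, hl, smul_smul, inv_mul_cancel₀ c1, one_smul]
  · have e1 := pb_sub F₀ (mp F₀ Q) P⁻¹
    have e2 := pb_sub F₀ 1 P⁻¹
    rw [inv_inv] at e1 e2
    rw [H10.subfieldSubgroup_mul_scal, ← e1, sub_mp, e2, mul_one]

end SUsub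

end Cfsg.Agent.H85.L3
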