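import Cfsg.Agent.H85.L3E

/-! Singer cycles of `SL₃(q)` and `SU₃(q)`. -/

set_option autoImplicit false
set_option linter.unusedSectionVars false
set_option linter.style.haveILetI false

namespace Cfsg.Agent.H85.L3

open Cfsg Cfsg.Geo Cfsg.Agent.H98 Cfsg.Agent.H99 Matrix

variable {F : Type*} [Field F] [Fintype F]

local notation "𝐆" => GL (Fin 3) F
local notation "𝐙" => scalars (Fin 3) F
local notation "𝐒" => specialLinear (Fin 3) F
local notation "𝐌" => Matrix (Fin 3) (Fin 3) F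

theorem exists_q {τ : F ≃+* F} (h1 : τ ≠ RingEquiv.refl F) (h2 : ∀ a, τ (τ a) = a) :
    ∃ (q : ℕ) (_ : Fact (Fintype.card F = q ^ 2)), τ = H10.sig F q := by
  obtain ⟨y, hy⟩ : ∃ y, τ y ≠ y := by
    by_contra h
    push Not at h
    exact h1 (RingEquiv.ext h)
  let F₁ : Subfield F := (τ : F →+* F).eqLocusField (RingHom.id F)
  have hm : ∀ a, a ∈ F₁ ↔ τ a = a := fun _ => Iff.rfl
  have h0 : y - τ y ≠ 0 := sub_ne_zero.2 hy.symm
  have h0' : τ y - y ≠ 0 := sub_ne_zero.2 hy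
  have hc : Fintype.card F = Nat.card F₁ ^ 2 := by
    rw [sq, ← Nat.card_prod, ← Nat.card_eq_fintype_card]
    refine (Nat.card_congr (Equiv.ofBijective (fun p : F₁ × F₁ => (p.1 : F) + p.2 * y)
      ⟨fun a b hab => ?_, fun z => ?_⟩)).symm
    · have h1 := congrArg τ hab
      simp only [map_add, map_mul, (hm _).1 a.1.2, (hm _).1 a.2.2, (hm _).1 b.1.2,
        (hm _).1 b.2.2] at h1
      have h3 : (a.2 : F) = b.2 := mul_right_cancel₀ h0 (by linear_combination hab - h1)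
      simp only [h3, add_left_inj] at hab
      exact Prod.ext (Subtype.ext hab) (Subtype.ext h3)
    · refine ⟨(⟨z - (z - τ z) / (y - τ y) * y, (hm _).2 ?_⟩, ⟨(z - τ z) / (y - τ y), (hm _).2 ?_⟩),
        by simp⟩
      · simp only [map_sub, map_mul, map_div₀, h2]
        field_simp
        ring
      · simp only [map_sub, map_div₀, h2]
        field_simp
        ring
  exact ⟨_, ⟨hc⟩, RingEquiv.ext fun x => @H10.invol_eq_cj F _ _ _ ⟨hc⟩ (τ : F →+* F) h2 y hy x⟩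

theorem orbit_roots {L : Type*} [Field L] {t s d : L} {ψ : L → L} (hi : Function.Injective ψ)
    (hψ : ∀ x, x ^ 3 - t * x ^ 2 + s * x - d = 0 → ψ x ^ 3 - t * ψ x ^ 2 + s * ψ x - d = 0)
    {a : L} (ha : a ^ 3 - t * a ^ 2 + s * a - d = 0) : ψ a = a ∨ ψ (ψ a) = a ∨ ψ (ψ (ψ a)) = a := by
  by_contra hc
  push Not at hc
  obtain ⟨h1, h2, h3⟩ := hc
  have k : ∀ x y z : L, x ^ 3 - t * x ^ 2 + s * x - d = 0 → y ^ 3 - t * y ^ 2 + s * y - d = 0 →
      z ^ 3 - t * z ^ 2 + s * z - d = 0 → x ≠ y → x ≠ z → y ≠ z → x + y + z = t := by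
    intro x y z hx hy hz n1 n2 n3
    apply mul_left_cancel₀ (mul_ne_zero (mul_ne_zero (sub_ne_zero.2 n1) (sub_ne_zero.2 n2))
      (sub_ne_zero.2 n3))
    linear_combination (y - z) * hx - (x - z) * hy + (x - y) * hz
  have a1 := hψ _ ha
  have a2 := hψ _ a1
  have a3 := hψ _ a2
  have e1 := k _ _ _ ha a1 a2 h1.symm h2.symm (hi.ne h1.symm)
  have e2 := k _ _ _ ha a1 a3 h1.symm h3.symm (hi.ne h2.symm)
  exact hi.ne (hi.ne h1) (by linear_combination e2 - e1)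

theorem det_sub_smul (A : 𝐌) (c : F) :
    (A - c • 1).det = A.det - c * A.adjugate.trace + c ^ 2 * A.trace - c ^ 3 := by
  simp [det_fin_three, adjugate_fin_three, trace_fin_three]
  ring

theorem exists_frob {L : Type*} [Field L] [Algebra F L] (F₁ : Subfield F) :
    ∃ φ : L →+* L, (∀ x, φ x = x ^ Nat.card F₁) ∧ ∀ c ∈ F₁, φ (algebraMap F L c) = algebraMap F L c := by
  haveI := Fintype.ofFinite F₁
  haveI := Fact.mk (CharP.char_is_prime F (ringChar F))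
  haveI : CharP L (ringChar F) := charP_of_injective_algebraMap (algebraMap F L).injective _
  obtain ⟨n, -, hn⟩ := FiniteField.card F₁ (ringChar F)
  rw [Nat.card_eq_fintype_card]
  refine ⟨iterateFrobenius L (ringChar F) n, fun x => by rw [hn]; rfl, fun c hc => ?_⟩
  rw [iterateFrobenius_def, ← map_pow, ← hn]
  exact congrArg (fun x : F₁ => algebraMap F L x) (FiniteField.pow_card (⟨c, hc⟩ : F₁))

theorem ch3_sub {K : Subalgebra F 𝐌} (a : K) : a ^ 3 - algebraMap F K (a : 𝐌).trace * a ^ 2 +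
    algebraMap F K (a : 𝐌).adjugate.trace * a - algebraMap F K (a : 𝐌).det = 0 := by
  apply Subtype.ext
  have := ch3 (a : 𝐌)
  rw [← pow_three', ← sq] at this
  simp only [← Algebra.smul_def]
  rw [Algebra.algebraMap_eq_smul_one]
  push_cast
  rw [this]; abel

theorem sim_trace2 {σ : F ≃+* F} {f : (Fin 3 → F) → (Fin 3 → F) → F} (hf : IsSesq σ 1 f) {g : 𝐆}
    (hg : g ∈ similarityGroup f) (hS : g ∈ 𝐒) : ∃ m : F, m ^ 3 = 1 ∧ σ m = m ∧
      σ (g : 𝐌).trace = m * ((g⁻¹ : 𝐆) : 𝐌).trace ∧ σ ((g⁻¹ : 𝐆) : 𝐌).trace = m ^ 2 * (g : 𝐌).trace := by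
  obtain ⟨m, h1, h2⟩ := sim_adj hf hg hS
  have h3 : adj σ f ((g⁻¹ : 𝐆) : 𝐌) = m ^ 2 • (g : 𝐌) := by
    have := hf.adj_mul ((g : 𝐆) : 𝐌) ((g⁻¹ : 𝐆) : 𝐌)
    rw [Units.mul_inv, hf.adj_one, h2, mul_smul_comm] at this
    rw [← mul_one (adj σ f _), ← Units.inv_mul g, ← mul_assoc, ← one_smul F (adj σ f _ * _), ← h1,
      pow_succ, ← smul_smul, ← this, smul_mul_assoc, one_mul]
  have h4 := hf.adj_adj (g : 𝐌)
  rw [h2, hf.adj_smul, h3, smul_smul] at h4
  have h5 : σ m * m ^ 2 = 1 := smul_left_injective F (Units.ne_zero g) (h4.trans (one_smul _ _).symm)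
  exact ⟨m, h1, by linear_combination m * h5 - σ m * h1,
    by rw [← hf.trace_adj, h2, trace_smul, smul_eq_mul],
    by rw [← hf.trace_adj, h3, trace_smul, smul_eq_mul]⟩

section Fld

variable {K : Subalgebra F (Matrix (Fin 3) (Fin 3) F)} (hK : IsFieldSubalgebra 3 K)
include hK

theorem fld_le_of_mem {a : 𝐌} (ha : a ∈ K) (hn : ∀ c : F, a ≠ c • 1) {B : Subalgebra F 𝐌}
    (hB : a ∈ B) : K ≤ B := by
  letI : Field K := (isField_of_isFld hK.comm hK.inv).toField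
  haveI := Subalgebra.isSimpleOrder_of_finrank_prime F K (by rw [hK.finrank_eq]; norm_num)
  rcases eq_bot_or_eq_top (B.comap K.val) with h | h
  · have : (⟨a, ha⟩ : K) ∈ B.comap K.val := hB
    rw [h, Algebra.mem_bot] at this
    obtain ⟨c, hc⟩ := this
    exact absurd ((congrArg Subtype.val hc).symm.trans (Algebra.algebraMap_eq_smul_one c)) (hn c)
  · intro x hx
    have : (⟨x, hx⟩ : K) ∈ B.comap K.val := h ▸ trivial
    exact this

theorem fld_scalar {a : 𝐌} (ha : a ∈ K) {c : F} (h : (a - c • 1).det = 0) : a = c • 1 := by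
  by_contra hn
  obtain ⟨y, -, hy⟩ := hK.inv _ (K.sub_mem ha (K.smul_mem K.one_mem c)) (sub_ne_zero.2 hn)
  have := congrArg det hy
  simp [h] at this

theorem exists_order {N : ℕ} (hN : N ∣ Fintype.card F ^ 3 - 1) :
    ∃ k : 𝐆, (k : 𝐌) ∈ K ∧ orderOf k = N := by
  letI : Field K := (isField_of_isFld hK.comm hK.inv).toField
  obtain ⟨g, hg⟩ := IsCyclic.exists_ofOrder_eq_natCard (α := Kˣ)
  rw [Nat.card_units, H10.card_fieldSub hK] at hg
  refine ⟨Units.map (K.val : K →* 𝐌) (g ^ (orderOf g / N)), (g ^ (orderOf g / N) : Kˣ).1.2, ?_⟩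
  rw [orderOf_injective _ (Units.map_injective Subtype.val_injective)]
  exact orderOf_pow_orderOf_div (orderOf_pos g).ne' (hg ▸ hN)

theorem mem_fldNorm {k : 𝐆} (hk : (k : 𝐌) ∈ K) : k ∈ subalgebraNormalizer K := by
  obtain ⟨y, hy, e⟩ := hK.inv _ hk (Units.ne_zero k)
  have h1 : ((k⁻¹ : 𝐆) : 𝐌) ∈ K := by rwa [← Units.eq_inv_of_mul_eq_one_left e]
  refine fun x => ⟨fun hx => K.mul_mem (K.mul_mem hk hx) h1, fun hx => ?_⟩
  simpa [mul_assoc] using K.mul_mem (K.mul_mem h1 hx) hk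

end Fld

/-- `k` is an element of order `N` and determinant one of the field `K` -/
structure Sing (K : Subalgebra F 𝐌) (k : 𝐆) (N : ℕ) : Prop where
  fld : IsFieldSubalgebra 3 K
  mem : (k : 𝐌) ∈ K
  sl : k ∈ 𝐒
  ord : orderOf k = N

theorem exists_sing_sl {K : Subalgebra F 𝐌} (hK : IsFieldSubalgebra 3 K) :
    ∃ k, Sing K k (Fintype.card F ^ 2 + Fintype.card F + 1) := by
  obtain ⟨m, hm⟩ : ∃ m, Fintype.card F = m + 2 := ⟨_, (Nat.sub_add_cancel Fintype.one_lt_card).symm⟩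
  have e : Fintype.card F ^ 3 - 1 = (Fintype.card F ^ 2 + Fintype.card F + 1) * (Fintype.card F - 1) := by
    rw [hm]; exact Nat.sub_eq_of_eq_add (by rw [show m + 2 - 1 = m + 1 from rfl]; ring)
  obtain ⟨k, hk, ho⟩ := exists_order hK ⟨_, e⟩
  refine ⟨k, hK, hk, mem_sl.2 ?_, ho⟩
  have h1 := det_smul_one_eq_pow (by simpa using hK) hk
  rw [Fintype.card_fin, e, Nat.mul_div_cancel _ (by omega), ← Units.val_pow_eq_pow_val, ← ho,
    pow_orderOf_eq_one] at h1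
  simpa using congrFun (congrFun h1 0) 0

theorem exists_sing_su {q : ℕ} [hF : Fact (Fintype.card F = q ^ 2)] {K : Subalgebra F 𝐌}
    (hK : IsFieldSubalgebra 3 K) (ha : IsAdjointClosedFor (hermForm 3 F q) K) :
    ∃ k N, Sing K k N ∧ N + q = q ^ 2 + 1 ∧ k ∈ H10.SUG 3 F q := by
  obtain ⟨m, rfl⟩ : ∃ m, q = m + 2 := ⟨_, (Nat.sub_add_cancel (H10.two_le_of_card_sq hF.out)).symm⟩
  have e : ((m + 2) ^ 2) ^ 3 - 1 =
      (m ^ 2 + 3 * m + 3) * (m ^ 2 + 5 * m + 7) * ((m + 2) ^ 2 - 1) := by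
    rw [show (m + 2) ^ 2 - 1 = m ^ 2 + 4 * m + 3 from Nat.sub_eq_of_eq_add (by ring)]
    exact Nat.sub_eq_of_eq_add (by ring)
  obtain ⟨k, hk, ho⟩ := exists_order hK (N := m ^ 2 + 3 * m + 3)
    (by rw [hF.out, e, mul_assoc]; exact dvd_mul_right _ _)
  have h1 : k ∈ H10.SUG 3 F (m + 2) := by
    rw [H10.mem_SUG_iff_pow (by norm_num) hK ha hk, ← orderOf_dvd_iff_pow_eq_one,
      ← orderOf_dvd_iff_pow_eq_one, ho, e, Nat.mul_div_cancel _ (by
        rw [show (m + 2) ^ 2 - 1 = m ^ 2 + 4 * m + 3 from Nat.sub_eq_of_eq_add (by ring)]; omega)]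
    exact ⟨⟨m + 3, by ring⟩, dvd_mul_right _ _⟩
  exact ⟨k, _, ⟨hK, hk, h1.2, ho⟩, by ring, h1⟩

namespace Sing

variable {K : Subalgebra F (Matrix (Fin 3) (Fin 3) F)} {k : GL (Fin 3) F} {N : ℕ} (h : Sing K k N)
  {X : Subgroup (GL (Fin 3) F)}
include h

theorem dvd_of_Z {m : ℕ} (hm : k ^ m ∈ 𝐙) : N ∣ 3 * m := by
  rw [← h.ord, orderOf_dvd_iff_pow_eq_one, pow_mul']
  exact cube_of_scalar hm (pow_mem h.sl m)

theorem dvd_of_smul {m : ℕ} {c : F} (hm : (k : 𝐌) ^ m = c • 1) : N ∣ 3 * m :=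
  h.dvd_of_Z (mem_scalars_of_coe_eq hm)

theorem mem_norm : k ∈ subalgebraNormalizer K := mem_fldNorm h.fld h.mem

theorem irr (hN : ¬ N ∣ 3) (hX : k ∈ X) : Irr X := fun W hW => by
  have h1 := fld_le_of_mem h.fld h.mem (fun c e => hN (h.dvd_of_smul (m := 1) (by simpa using e)))
    (coe_mem_grpAlg hX)
  have h2 := IsFieldSubalgebra_dvd h.fld (W := W) fun x hx v hv => hW.grpAlg (h1 hx) hv
  have h3 : Module.finrank F W ≤ 3 := by simpa using W.finrank_le
  by_cases h0 : Module.finrank F W = 0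
  · exact Or.inl (Submodule.finrank_eq_zero.1 h0)
  · exact Or.inr (Submodule.eq_top_of_finrank_eq (by
      have := Nat.le_of_dvd (by omega) h2
      simp; omega))

theorem t2 (hX : k ∈ X) (ht : T2 X) : N ∣ 18 := by
  obtain ⟨π, -, -, h3⟩ := ht.exists_hom
  obtain ⟨v, c, v0, hv⟩ := h3 (⟨k, hX⟩ ^ 6) (by
    have := pow_card_eq_one' (x := π ⟨k, hX⟩)
    rwa [Nat.card_perm, Nat.card_eq_fintype_card (α := Fin 3), Fintype.card_fin, ← map_pow] at this)
  refine h.dvd_of_smul (m := 6) (c := c) (fld_scalar h.fld (K.pow_mem h.mem 6)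
    (exists_mulVec_eq_zero_iff.1 ⟨v, v0, ?_⟩))
  rw [sub_mulVec, smul_mulVec, one_mulVec, ← hv, sub_eq_zero]
  rfl

theorem t3 (hN : ¬ N ∣ 9) {K' : Subalgebra F 𝐌} (hK' : IsFieldSubalgebra 3 K')
    (hk : k ∈ subalgebraNormalizer K') : K' = K := by
  have h1 := fld_le_of_mem h.fld (K.pow_mem h.mem 3) (fun c e => hN (h.dvd_of_smul e)) (cube_mem hK' hk)
  exact (Subalgebra.eq_of_le_of_finrank_eq h1 (h.fld.finrank_eq.trans hK'.finrank_eq.symm)).symm

theorem t6 (hX : k ∈ X) (ht : T6 X) : N ∣ 36 := by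
  rw [← h.ord, orderOf_dvd_iff_pow_eq_one]; exact ht.pow36 hX

theorem pgc {j : ℕ} (hj : 2 ≤ j) (hX : k ∈ X) (ht : PGc j X) : N ≤ 3 * (j + 1) := by
  rcases ht.p1 k hX with e | e | e <;> have := Nat.le_of_dvd (by omega) (h.dvd_of_Z e) <;> omega

theorem t5 {F₁ : Subfield F} (hX : k ∈ X) (ht : T5 F₁ X) :
    N ∣ 3 * (Nat.card F₁ ^ 2 - 1) ∨ N ∣ 3 * (Nat.card F₁ ^ 3 - 1) := by
  obtain ⟨P, hP⟩ := ht
  obtain ⟨c, c0, hc⟩ := mem_sub_iff.1 (hP hX)
  obtain ⟨h1, h2, h3⟩ := SR_inv hc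
  letI : Field K := (isField_of_isFld h.fld.comm h.fld.inv).toField
  obtain ⟨φ, hφ, hφ'⟩ := exists_frob (L := K) F₁
  let a : K := ⟨c • (k : 𝐌), K.smul_mem h.mem c⟩
  have a0 : a ≠ 0 := fun e => smul_ne_zero c0 (Units.ne_zero k) (congrArg Subtype.val e)
  have ha := orbit_roots (t := algebraMap F K (c • (k : 𝐌)).trace)
    (s := algebraMap F K (c • (k : 𝐌)).adjugate.trace) (d := algebraMap F K (c • (k : 𝐌)).det)
    φ.injective (a := a) (fun x hx => by
      have := congrArg φ hx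
      simpa only [map_sub, map_add, map_mul, map_pow, map_zero, hφ' _ h1, hφ' _ h2, hφ' _ h3]
        using this) (by
      exact ch3_sub a)
  have key : ∀ m, a ^ m = a → N ∣ 3 * (m - 1) := fun m e => by
    rcases m with _ | m
    · simp
    rw [pow_succ, mul_eq_right₀ a0] at e
    have e2 : (c • (k : 𝐌)) ^ m = 1 := congrArg Subtype.val e
    refine h.dvd_of_smul (c := (c ^ m)⁻¹) ?_
    rw [Nat.add_sub_cancel, eq_inv_smul_iff₀ (pow_ne_zero _ c0), ← _root_.smul_pow, e2]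
  simp only [hφ, ← pow_mul] at ha
  rcases ha with e | e | e
  · exact Or.inl (key _ (by rw [sq, pow_mul, e, e]))
  · exact Or.inl (key _ (by rw [sq, e]))
  · exact Or.inr (key _ (by rw [pow_three', e]))

theorem t8_refl (hX : k ∈ X) (ht : T8 (RingEquiv.refl F) X) : N ∣ 3 := by
  obtain ⟨f, hf, hle⟩ := ht
  obtain ⟨m, h1, h2⟩ := sim_trace hf (hle hX) h.sl
  refine h.dvd_of_smul (m := 1) (c := m ^ 2) (by
    rw [pow_one]
    refine fld_scalar h.fld h.mem ?_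
    rw [det_sub_smul, adj_eq_inv (mem_sl.1 h.sl), mem_sl.1 h.sl]
    rw [RingEquiv.refl_apply] at h2
    rw [h2]
    linear_combination (-m ^ 3 - 1 + m ^ 2 * ((k⁻¹ : 𝐆) : 𝐌).trace) * h1)

theorem t8 {q : ℕ} [hF : Fact (Fintype.card F = q ^ 2)] (hX : k ∈ X) (ht : T8 (H10.sig F q) X) :
    N ≤ 3 * (q ^ 3 + 1) := by
  have hq := H10.two_le_of_card_sq hF.out
  obtain ⟨f, hf, hle⟩ := ht
  obtain ⟨m, h1, h2, h3, h4⟩ := sim_trace2 hf (hle hX) h.sl
  letI : Field K := (isField_of_isFld h.fld.comm h.fld.inv).toField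
  obtain ⟨φ, hφ, hφ'⟩ : ∃ φ : K →+* K, (∀ x, φ x = x ^ q) ∧
      ∀ c, φ (algebraMap F K c) = algebraMap F K (H10.sig F q c) := by
    obtain ⟨φ, hφ, -⟩ := exists_frob (L := K) (H10.fixedSubfield F q)
    rw [H10.card_fixedSubfield] at hφ
    exact ⟨φ, hφ, fun c => by rw [hφ, ← map_pow]; rfl⟩
  let a : K := ⟨k, h.mem⟩
  have a0 : a ≠ 0 := fun e => Units.ne_zero k (congrArg Subtype.val e)
  set μ := algebraMap F K m with hμ
  have m3 : μ ^ 3 = 1 := by rw [hμ, ← map_pow, h1, map_one]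
  have m0 : μ ≠ 0 := by rintro e; simp [e] at m3
  have hr := ch3_sub a
  rw [adj_eq_inv (mem_sl.1 h.sl), mem_sl.1 h.sl, map_one] at hr
  have ha := orbit_roots (ψ := fun x => μ * (φ x)⁻¹)
    (fun x y e => φ.injective (inv_injective (mul_left_cancel₀ m0 e))) (fun x hx => by
      have x0 : φ x ≠ 0 := by
        rw [map_ne_zero]; rintro rfl; simp at hx
      have := congrArg φ hx
      simp only [map_sub, map_add, map_mul, map_pow, map_zero, map_one, hφ'] at this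
      rw [h3, h4, map_mul, map_mul, map_pow, ← hμ] at this
      field_simp
      linear_combination -this + m3) hr
  have key : ∀ n : ℕ, μ * (a ^ n)⁻¹ = a → N ≤ 3 * (n + 1) := fun n e => by
    rw [mul_inv_eq_iff_eq_mul₀ (pow_ne_zero _ a0), ← pow_succ', hμ,
      Algebra.algebraMap_eq_smul_one] at e
    exact Nat.le_of_dvd (by omega) (h.dvd_of_smul (congrArg Subtype.val e).symm)
  have hm : φ μ = μ := by rw [hμ, hφ', h2]
  simp only [map_mul, map_inv₀, hm, _root_.mul_inv_rev, inv_inv] at ha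
  simp only [hφ, ← pow_mul] at ha
  have q3 : q ≤ q * q ∧ q * q ≤ q ^ 3 := ⟨by nlinarith, by rw [pow_three']; nlinarith⟩
  rcases ha with e | e | e
  · have := key _ e; omega
  · obtain ⟨n, hn⟩ : ∃ n, q * q = n + 1 := ⟨q * q - 1, by omega⟩
    rw [mul_comm, inv_mul_cancel_right₀ m0, hn, pow_succ, mul_eq_right₀ a0] at e
    have := Nat.le_of_dvd (by omega) (h.dvd_of_smul (m := n) (c := 1)
      ((congrArg Subtype.val e).trans (one_smul _ _).symm))
    omega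
  · rw [pow_three']
    refine key _ (Eq.trans ?_ e)
    field_simp

end Sing

end Cfsg.Agent.H85.L3
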