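import Cfsg.Agent.H85.L3G
import Cfsg.Agent.H27.SUDec
import Cfsg.Agent.H27.TvSL

/-! The reducible and the monomial subgroups of `SL₃(q)` and `SU₃(q)`. -/

set_option autoImplicit false
set_option linter.unusedSectionVars false
set_option linter.style.haveILetI false

namespace Cfsg.Agent.H85.L3

open Cfsg Cfsg.Geo

section C1

open Module Cfsg.Agent.H27

theorem stab_point {F V : Type*} [Field F] [AddCommGroup V] [Module F V] {σ : F →+* F}
    [FiniteDimensional F V] [Finite F] {B : V →ₛₗ[σ] V →ₗ[F] F} (S : UH B) {W : Submodule F V}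
    (h0 : W ≠ ⊥) (hW : ∀ x ∈ W, (∀ y ∈ W, B x y = 0) → x = 0) (hd : finrank F W < 2)
    (h5 : 3 ≤ finrank F V) : IsMaximalIn (GG B) (stab W ⊓ GG B) := by
  obtain ⟨⟨d⟩, o⟩ := S.exists_dec_perp hW
  have h1 := d.finrank_add
  have h3 : 2 ≤ finrank F (perp B W) := by omega
  refine S.isMaximalIn_stab_nd d o (by omega) (S.exists_iso_ne d o (i := 1) h3) ?_ ?_
  · intro H hH w hw u hu hw0 hu0 h w' hw' u' hu' hw0' hu0' h1
    have n : ∀ w ∈ W, w ≠ 0 → B w w ≠ 0 := fun w hw hw0 e => by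
      have : 2 ≤ finrank F W := S.two_le_of_iso d o (i := 0) hw hw0 e
      omega
    have oo : ∀ w ∈ W, ∀ u ∈ perp B W, B (w + u) (w + u) = B w w + B u u := fun w hw u hu => by
      simp [o 0 1 (by decide) w hw u hu, o 1 0 (by decide) u hu w hw]
    obtain ⟨c, hc⟩ := S.exists_scale (n w hw hw0) (S.norm_skew w')
    have h2 := S.as_smul h c
    rw [smul_add] at h2
    have h4 := h2.1
    have a1 := W.smul_mem c hw
    have a2 := (perp B W).smul_mem c hu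
    rw [oo _ a1 _ a2, hc] at h4
    rw [oo _ hw' _ hu'] at h1
    have n' := n w' hw' hw0'
    obtain ⟨y, hy, e1, e2⟩ := S.exists_noniso_perp d o (i := 1) hu'
      (Or.inr ⟨fun e => n' (by rwa [e, add_zero] at h1), h3⟩)
    simpa using S.move2 d o hH (i := 0) (j := 1) (by decide) a1 hw' a2 hu' (map_zero _) (map_zero _)
      (fun h => n' (by rw [← hc, h]; simp)) hw0' (fun h => n' (by simpa [h] using h4)) hu0' hc
      (by linear_combination h4 - h1) (S.spare_of o hy e2 (by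
        simp [o 1 0 (by decide) y hy w' hw', S.zero_symm e1])) (by simpa using h2)
  obtain ⟨w, hw, hw0⟩ := S.exists_noniso d o (i := 0) h0
  obtain ⟨u, hu, hu0⟩ := S.exists_noniso d o (i := 1)
    (ne_bot_of_finrank_pos (W := perp B W) (by omega))
  obtain ⟨c, hc⟩ := S.exists_scale hu0 (μ := -B w w) (by rw [map_neg, S.norm_skew])
  have hu' := (perp B W).smul_mem c hu
  refine ⟨w, hw, c • u, hu', by rintro rfl; simp at hw0, fun h => hw0 ?_, ?_⟩
  · rw [h] at hc; simpa using hc.symm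
  · rw [map_add B, map_add, LinearMap.add_apply, LinearMap.add_apply, hc, hu' w hw,
      S.zero_symm (hu' w hw)]
    ring

variable {F : Type*} [Field F] [Fintype F] {q : ℕ}

theorem c1_sl (W : Submodule F (Fin 3 → F)) (hW0 : W ≠ ⊥) (hW1 : W ≠ ⊤) :
    IsMaximalIn (specialLinear (Fin 3) F) (subspaceStabilizer W ⊓ specialLinear (Fin 3) F) := by
  have := isMaximalIn_comap (toLE (Fin 3) F) (isMaximalIn_stab_SLV hW0 hW1)
  rwa [Subgroup.comap_inf, comap_SLV, comap_stab] at this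

theorem c1_ts [Fact (Fintype.card F = q ^ 2)] (hq : 3 ≤ q) (W : Submodule F (Fin 3 → F))
    (hW0 : W ≠ ⊥) (hW : IsTotallySingularFor (hermForm 3 F q) W) :
    IsMaximalIn (H10.SUG 3 F q) (subspaceStabilizer W ⊓ H10.SUG 3 F q) := by
  obtain ⟨ζ, h0, hζ⟩ := H10.exists_skew F q
  have := isMaximalIn_comap (toLE (Fin 3) F)
    ((skH_su (n := 3) (by omega) h0 hζ).isMaximalIn_stab_ti hW0 fun x hx y hy =>
      (suB_eq_zero h0).2 (hW y hy x hx))
  rwa [Subgroup.comap_inf, comap_GG_su h0, comap_stab] at this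

theorem c1_nd [Fact (Fintype.card F = q ^ 2)] (hq : 3 ≤ q) (W : Submodule F (Fin 3 → F))
    (hW0 : W ≠ ⊥) (hW : IsNondegenerateOn (hermForm 3 F q) W) (hdim : 2 * Module.finrank F W < 3) :
    IsMaximalIn (H10.SUG 3 F q) (subspaceStabilizer W ⊓ H10.SUG 3 F q) := by
  obtain ⟨ζ, h0, hζ⟩ := H10.exists_skew F q
  have := isMaximalIn_comap (toLE (Fin 3) F)
    (stab_point (uH_su (n := 3) (by omega) h0 hζ) hW0 (fun x hx h => by
        by_contra h1
        obtain ⟨y, hy, hy'⟩ := (hW x hx h1).1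
        exact hy' ((suB_eq_zero h0).1 (h y hy))) (by omega) (by simp))
  rwa [Subgroup.comap_inf, comap_GG_su h0, comap_stab] at this

end C1

open Cfsg.Agent.H98 Cfsg.Agent.H99 Matrix

variable {F : Type*} [Field F] [Fintype F]

local notation "𝐆" => GL (Fin 3) F
local notation "𝐙" => scalars (Fin 3) F
local notation "𝐒" => specialLinear (Fin 3) F
local notation "𝐌" => Matrix (Fin 3) (Fin 3) F

/-- `diag (x, x⁻¹, 1)` -/
noncomputable def aG (x : Fˣ) : 𝐆 := mk1 (dM x (x⁻¹ : Fˣ) 1) (by simp [det_dM])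

/-- `diag (1, x, x⁻¹)` -/
noncomputable def bG (x : Fˣ) : 𝐆 := mk1 (dM 1 x (x⁻¹ : Fˣ)) (by simp [det_dM])

theorem dM_mul (a b c a' b' c' : F) : dM a b c * dM a' b' c' = dM (a * a') (b * b') (c * c') := by
  simp [dM]

theorem dM_one : dM (1 : F) 1 1 = 1 := by ext i j; fin_cases i <;> fin_cases j <;> simp [dM]

theorem aG_mul (x y : Fˣ) : aG (x * y) = aG x * aG y := Units.ext (by
  rw [Units.val_mul, aG, aG, aG, coe_mk1, coe_mk1, coe_mk1, dM_mul]; simp [mul_comm])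

theorem bG_mul (x y : Fˣ) : bG (x * y) = bG x * bG y := Units.ext (by
  rw [Units.val_mul, bG, bG, bG, coe_mk1, coe_mk1, coe_mk1, dM_mul]; simp [mul_comm])

theorem aG_one : aG (1 : Fˣ) = 1 := Units.ext (by rw [aG, coe_mk1]; simpa using dM_one)
theorem bG_one : bG (1 : Fˣ) = 1 := Units.ext (by rw [bG, coe_mk1]; simpa using dM_one)

theorem aG_pow (x : Fˣ) (n : ℕ) : aG x ^ n = aG (x ^ n) :=
  (map_pow (MonoidHom.mk' aG aG_mul) x n).symm

theorem bG_pow (x : Fˣ) (n : ℕ) : bG x ^ n = bG (x ^ n) :=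
  (map_pow (MonoidHom.mk' bG bG_mul) x n).symm

theorem aG_inv (x : Fˣ) : (aG x)⁻¹ = aG x⁻¹ := (map_inv (MonoidHom.mk' aG aG_mul) x).symm
theorem bG_inv (x : Fˣ) : (bG x)⁻¹ = bG x⁻¹ := (map_inv (MonoidHom.mk' bG bG_mul) x).symm

theorem dM_scalar {g : 𝐆} {a b c : F} (e : (g : 𝐌) = dM a b c) (h : g ∈ 𝐙) : a = b ∧ a = c := by
  obtain ⟨d, hd⟩ := (mem_scalars_iff g).1 h
  rw [e] at hd
  have h0 := congrFun (congrFun hd 0) 0
  have h1 := congrFun (congrFun hd 1) 1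
  have h2 := congrFun (congrFun hd 2) 2
  simp [dM] at h0 h1 h2
  exact ⟨h0.trans h1.symm, h0.trans h2.symm⟩

theorem aG_Z {x : Fˣ} (h : aG x ∈ 𝐙) : x = 1 := Units.ext (dM_scalar rfl h).2
theorem bG_Z {x : Fˣ} (h : bG x ∈ 𝐙) : x = 1 := Units.ext (dM_scalar rfl h).1.symm

theorem ab_comm (x y : Fˣ) : aG x * bG y = bG y * aG x := Units.ext (by
  rw [Units.val_mul, Units.val_mul, aG, bG, coe_mk1, coe_mk1, dM_mul, dM_mul]; simp [mul_comm])

/-- `X` contains the monomial matrices with entries in `μ` -/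
structure Mon (μ : Subgroup Fˣ) (X : Subgroup 𝐆) : Prop where
  le : X ≤ 𝐒
  y : yG F ∈ X
  s : sG F ∈ X
  a : ∀ x ∈ μ, aG x ∈ X
  b : ∀ x ∈ μ, bG x ∈ X

theorem bm_d (a b c : F) : ∃ σ, BlockMono id σ (dM a b c) :=
  ⟨1, fun k l => by fin_cases k <;> fin_cases l <;> simp [dM]⟩

theorem bm_y : ∃ σ, BlockMono id σ ((yG F : 𝐆) : 𝐌) :=
  ⟨finRotate 3, fun k l => by fin_cases k <;> fin_cases l <;> simp [yG, coe_mk1, yM]⟩

theorem bm_s : ∃ σ, BlockMono id σ ((sG F : 𝐆) : 𝐌) :=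
  ⟨Equiv.swap 0 1, fun k l => by
    fin_cases k <;> fin_cases l <;> simp [sG, coe_mk1, Equiv.swap_apply_def]⟩

theorem mon_sl {Y : Subgroup 𝐆} (h : ∀ g, g ∈ Y ↔ ∃ σ, BlockMono id σ (g : 𝐌)) : Mon ⊤ (Y ⊓ 𝐒) :=
  ⟨inf_le_right, ⟨(h _).2 bm_y, mk1_mem _ _⟩, ⟨(h _).2 bm_s, mk1_mem _ _⟩,
    fun _ _ => ⟨(h _).2 (bm_d _ _ _), mk1_mem _ _⟩, fun _ _ => ⟨(h _).2 (bm_d _ _ _), mk1_mem _ _⟩⟩

theorem mon_su {q : ℕ} [Fact (Fintype.card F = q ^ 2)] {Y : Subgroup 𝐆}
    (h : ∀ g, g ∈ Y ↔ ∃ σ, BlockMono id σ (g : 𝐌)) :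
    Mon (powMonoidHom (q + 1)).ker (Y ⊓ H10.SUG 3 F q) := by
  have k : ∀ x ∈ (powMonoidHom (q + 1) : Fˣ →* Fˣ).ker, (x : F) * H10.sig F q x = 1 := fun x hx => by
    have := congrArg Units.val (MonoidHom.mem_ker.1 hx)
    rwa [powMonoidHom_apply, Units.val_pow_eq_pow_val, pow_succ'] at this
  refine ⟨inf_le_right.trans inf_le_right, ⟨(h _).2 bm_y, yG_mem (H10.sig F q)⟩,
    ⟨(h _).2 bm_s, sG_mem (H10.sig F q)⟩, fun x hx => ⟨(h _).2 (bm_d _ _ _), ?_⟩,
    fun x hx => ⟨(h _).2 (bm_d _ _ _), ?_⟩⟩ <;>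
  · refine (mem_SUs (σ := H10.sig F q)).2 ⟨?_, mk1_mem _ _⟩
    have h1 := k x hx
    have h2 := k _ (inv_mem hx)
    simp only [aG, bG, coe_mk1]
    ext i j
    fin_cases i <;> fin_cases j <;> simp [dM, Matrix.mul_apply, Fin.sum_univ_three] <;>
      first | exact h1 | simpa using h2

theorem exists_frame_dec_su {q : ℕ} [Fact (Fintype.card F = q ^ 2)]
    {D : Fin 3 → Submodule F (Fin 3 → F)} (hD : IsNondegenerateMDecomposition (hermForm 3 F q) 1 D) :
    ∃ Q ∈ GU 3 F q, ∀ g, g ∈ pb Q (decompositionStabilizer D) ↔ ∃ σ, BlockMono id σ (g : 𝐌) := by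
  obtain ⟨e, P, h, h2⟩ := H10.exists_adapted_frame H10.isSesq_herm hD
  obtain ⟨Q, hQ, hQ'⟩ := frmG_eq e P
  exact ⟨Q, fun x y => by have := h2 x y; rwa [hQ', hQ'] at this, adapted_iff hD.decomp h hQ⟩

theorem pb_SUG {q : ℕ} {Q : 𝐆} (hQ : Q ∈ GU 3 F q) : pb Q (H10.SUG 3 F q) = H10.SUG 3 F q := by
  rw [pb_inf, pb_sl]
  congr 1
  ext g
  rw [mem_pb, Subgroup.mul_mem_cancel_right _ (inv_mem hQ), Subgroup.mul_mem_cancel_left _ hQ]

theorem exists_ord {n : ℕ} (h : n ∣ Fintype.card F - 1) : ∃ x : Fˣ, orderOf x = n := by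
  obtain ⟨g, hg⟩ := IsCyclic.exists_ofOrder_eq_natCard (α := Fˣ)
  rw [Nat.card_units, Nat.card_eq_fintype_card] at hg
  exact ⟨_, orderOf_pow_orderOf_div (orderOf_pos g).ne' (hg ▸ h)⟩

theorem pow_card_sub {F₁ : Subfield F} {c : F} (hc : c ∈ F₁) : c ^ Nat.card F₁ = c := by
  haveI := Fintype.ofFinite F₁
  rw [Nat.card_eq_fintype_card]
  exact congrArg Subtype.val (FiniteField.pow_card (⟨c, hc⟩ : F₁))

theorem two_le_card_sub (F₁ : Subfield F) : 2 ≤ Nat.card F₁ := Finite.one_lt_card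

theorem sb_trace (x : Fˣ) : ((sG F * bG x : 𝐆) : 𝐌).trace = -(x⁻¹ : Fˣ) ∧
    (((sG F * bG x)⁻¹ : 𝐆) : 𝐌).trace = -x := by
  rw [_root_.mul_inv_rev, bG_inv, inv_eq_of_mul_eq_one_right sG_sq]
  simp [sG, bG, coe_mk1, dM, trace_fin_three]

namespace Mon

variable {μ : Subgroup Fˣ} {X : Subgroup (GL (Fin 3) F)} (h : Mon μ X) {x : Fˣ} (hx : x ∈ μ)
include h hx

theorem irr (hn : 4 ≤ orderOf x) : Irr X := by
  refine irr_of_diag (h.a x hx) rfl (fun e => ?_) (fun e => ?_) h.y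
  · have : x ^ 2 = 1 := by rw [sq, mul_eq_one_iff_eq_inv]; exact Units.ext e
    have := orderOf_le_of_pow_eq_one (by norm_num) this
    omega
  · rw [show x = 1 from Units.ext e, orderOf_one] at hn
    omega

theorem t5 {F₁ : Subfield F} (ht : T5 F₁ X) : orderOf x ∣ 3 * (Nat.card F₁ - 1) := by
  obtain ⟨P, hP⟩ := ht
  have hg := mul_mem h.s (h.b x hx)
  obtain ⟨c, c0, h1, -, h3⟩ := sub_trace (hP hg) (h.le hg)
  rw [(sb_trace x).1] at h1
  have h4 := F₁.neg_mem (F₁.div_mem h3 (F₁.pow_mem h1 3))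
  have h5 : ((x ^ 3 : Fˣ) : F) ∈ F₁ := by
    convert h4 using 1
    simp; field_simp
  obtain ⟨m, hm⟩ : ∃ m, Nat.card F₁ = m + 1 := ⟨_, (Nat.sub_add_cancel Nat.card_pos).symm⟩
  have h6 := pow_card_sub h5
  rw [hm, pow_succ, mul_eq_right₀ (Units.ne_zero _)] at h6
  rw [orderOf_dvd_iff_pow_eq_one, hm, Nat.add_sub_cancel, pow_mul]
  exact Units.ext (by simpa using h6)

theorem t5' (hn : 4 ≤ orderOf x) {F₁ : Subfield F} (ht : T5 F₁ X) : orderOf x ≤ Nat.card F₁ + 1 := by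
  obtain ⟨P, hP⟩ := ht
  obtain ⟨c, c0, h1, h2, -⟩ := sub_trace (hP (h.a x hx)) (mk1_mem _ _)
  have e1 : ((aG x : 𝐆) : 𝐌).trace = x + (x : F)⁻¹ + 1 := by simp [aG, coe_mk1, dM, trace_fin_three]
  have e2 : (((aG x)⁻¹ : 𝐆) : 𝐌).trace = x + (x : F)⁻¹ + 1 := by
    rw [aG_inv]; simp [aG, coe_mk1, dM, trace_fin_three, add_comm]
  have x0 := x.ne_zero
  have t0 : (x : F) + (x : F)⁻¹ + 1 ≠ 0 := fun e => by
    have : x ^ 3 = 1 := Units.ext (by
      have : (x : F) * (x : F)⁻¹ = 1 := mul_inv_cancel₀ x0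
      push_cast; linear_combination ((x : F) ^ 2 - x) * e + (1 - (x : F)) * this)
    have := orderOf_le_of_pow_eq_one (by norm_num) this
    omega
  rw [e1] at h1
  rw [e2] at h2
  have h3 : (x : F) + (x : F)⁻¹ ∈ F₁ := by
    convert F₁.sub_mem (F₁.div_mem (F₁.pow_mem h1 2) h2) F₁.one_mem using 1
    rw [eq_sub_iff_add_eq, eq_div_iff (mul_ne_zero (pow_ne_zero 2 c0) t0)]; ring
  obtain ⟨φ, hφ, hφ'⟩ := exists_frob (L := F) F₁
  have h4 := hφ' _ h3
  simp only [Algebra.algebraMap_self, RingHom.id_apply] at h4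
  rw [map_add, map_inv₀, hφ] at h4
  have h5 : ((x : F) ^ Nat.card F₁ - x) * ((x : F) ^ Nat.card F₁ * x - 1) = 0 := by
    have y0 := pow_ne_zero (Nat.card F₁) x0
    generalize (x : F) ^ Nat.card F₁ = y at *
    field_simp at h4
    linear_combination h4
  have h2 := two_le_card_sub F₁
  rcases mul_eq_zero.1 h5 with e | e
  · obtain ⟨m, hm⟩ : ∃ m, Nat.card F₁ = m + 1 := ⟨_, (Nat.sub_add_cancel Nat.card_pos).symm⟩
    rw [sub_eq_zero, hm, pow_succ, mul_eq_right₀ x0] at e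
    have := orderOf_le_of_pow_eq_one (x := x) (n := m) (by omega) (Units.ext (by simpa using e))
    omega
  · rw [sub_eq_zero, ← pow_succ] at e
    exact orderOf_le_of_pow_eq_one (by omega) (Units.ext (by simpa using e))

theorem pgc {k : ℕ} (hk : 2 ≤ k) (ht : PGc k X) : orderOf x ≤ k + 1 := by
  rcases ht.p1 _ (h.a x hx) with e | e | e <;> rw [aG_pow] at e <;>
    have := orderOf_le_of_pow_eq_one (by omega) (aG_Z e) <;> omega

theorem not_pgc (h4 : orderOf x = 4) {k : ℕ} : ¬ PGc k X := fun ht => by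
  have a2 : x * x ≠ 1 := fun e => by
    have := orderOf_le_of_pow_eq_one (x := x) (n := 2) (by norm_num) (by rw [sq, e]); omega
  have a4 : x ^ 4 = 1 := h4 ▸ pow_orderOf_eq_one x
  have := ht.p3 _ (h.a x hx) _ (h.b x hx) (ab_comm x x) (fun e => a2 (aG_Z (aG_mul x x ▸ e)))
    (fun e => a2 (bG_Z (bG_mul x x ▸ e))) (by rw [aG_pow, a4, aG_one]; exact one_mem _)
    (by rw [bG_pow, a4, bG_one]; exact one_mem _)
  rw [← aG_mul, ← bG_mul, bG_inv] at this
  have h5 := (dM_scalar (dM_mul _ _ _ _ _ _) this).1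
  apply a2
  have h6 : (x * x) * (x * x) = 1 := by rw [← a4]; simp [pow_succ, mul_assoc]
  rw [inv_eq_of_mul_eq_one_right h6, ← Units.val_mul, h6, mul_one] at h5
  exact Units.ext h5

omit hx in
theorem not_t6 (h2 : (2 : F) ≠ 0) (hm : -1 ∈ μ) : ¬ T6 X := fun ht => by
  have n : (-1 : Fˣ) ≠ 1 := fun e => h2 (by
    have := congrArg Units.val e
    simp only [Units.val_neg, Units.val_one] at this
    linear_combination -this)
  have a2 : aG (-1 : Fˣ) * aG (-1) = 1 := by rw [← aG_mul, neg_one_mul, neg_neg, aG_one]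
  have := ht.no_four (h.a _ hm) h.s a2 sG_sq (by
    apply Units.ext
    simp [aG, sG, coe_mk1, dM, one_fin_three]) (fun e => n (aG_Z (e ▸ one_mem _))) (fun e =>
      not_noInv_s (X := ⊥) (e ▸ one_mem _) fun _ hg _ => hg)
  have h3 : ((aG (-1 : Fˣ) * sG F : 𝐆) : 𝐌) 0 0 = 1 := by rw [this]; simp
  simp [aG, sG, coe_mk1, dM] at h3

end Mon

theorem Mon.not_t8 {X : Subgroup 𝐆} (h : Mon ⊤ X) (hq : 5 ≤ Fintype.card F) {σ : F ≃+* F} :
    ¬ T8 σ X := by
  rintro ⟨f, hf, hX⟩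
  have k : ∀ x : Fˣ, (x : F) * σ x = 1 := fun x => by
    have hg := mul_mem h.s (h.b x trivial)
    obtain ⟨m, h1, h2, -, h4⟩ := sim_trace2 hf (hX hg) (h.le hg)
    rw [(sb_trace x).1, (sb_trace x).2, map_neg] at h4
    have m0 : m ≠ 0 := by rintro rfl; simp at h1
    have h5 := sim_comm hf (hX (h.b (Units.mk0 m m0) trivial)) (hX h.y) (ω := m) (by
      rw [bG, yG, coe_mk1, coe_mk1]
      ext i j
      fin_cases i <;> fin_cases j <;> simp [dM, yM]
      · exact (mul_inv_cancel₀ m0).symm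
      · exact inv_eq_of_mul_eq_one_right (by linear_combination h1))
    rw [h2, ← sq] at h5
    rw [h5, one_mul, neg_inj] at h4
    simp [h4]
  obtain ⟨x, hx⟩ := exists_ord (F := F) dvd_rfl
  have h1 : (x : F) + 1 ≠ 0 := fun e => by
    have : x ^ 2 = 1 := Units.ext (by push_cast; linear_combination ((x : F) - 1) * e)
    have := orderOf_le_of_pow_eq_one (by norm_num) this
    omega
  have h2 := k (Units.mk0 _ h1)
  have h3 := k x
  rw [Units.val_mk0, map_add, map_one] at h2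
  have : x ^ 3 = 1 := Units.ext (by
    push_cast; linear_combination ((x : F) - 1) * ((x : F) * h2 - ((x : F) + 1) * h3))
  have := orderOf_le_of_pow_eq_one (by norm_num) this
  omega

theorem pb_one (X : Subgroup 𝐆) : pb 1 X = X := by ext g; simp [mem_pb]

theorem maximal_frame {S A : Subgroup 𝐆} {P : 𝐆} (hS : pb P S = S) (h : ¬ S ≤ A)
    (h2 : ∀ M, pb P A ⊓ S ≤ M → IsMaximalIn S M → M ≤ pb P A) : IsMaximalIn S (A ⊓ S) := by
  refine maximal_of h fun M h3 hM => le_of_pb_le (P := P) (h2 _ ?_ ?_)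
  · rw [← hS, ← pb_inf]; exact pb_mono h3
  · rw [← hS]; exact H10.maximal_comap (MulAut.conj P) hM

theorem exists_om (h : 3 ∣ Fintype.card F - 1) : ∃ ω : F, Om ω := by
  obtain ⟨x, hx⟩ := exists_ord h
  refine ⟨x, om_of_cube (fun h3 => ?_) (by rw [← Units.val_pow_eq_pow_val, ← hx]; simp) fun e => ?_⟩
  · obtain ⟨c, hc⟩ := h
    have h1 := FiniteField.cast_card_eq_zero F
    rw [show Fintype.card F = 3 * c + 1 by have := Fintype.card_pos (α := F); omega] at h1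
    simp [h3] at h1
  · rw [show x = 1 from Units.ext e] at hx
    simp at hx

theorem char_eq {p : ℕ} (hp : p.Prime) {n : ℕ} (hq : Fintype.card F = p ^ n) :
    ringChar F = p := by
  obtain ⟨m, h1, h2⟩ := FiniteField.card F (ringChar F)
  exact (Nat.prime_dvd_prime_iff_eq h1 hp).1
    (h1.prime.dvd_of_dvd_pow (hq ▸ h2 ▸ dvd_pow_self _ m.ne_zero))

theorem char_le : ringChar F ≤ Fintype.card F := by
  obtain ⟨m, h1, h2⟩ := FiniteField.card F (ringChar F)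
  rw [h2]; exact Nat.le_self_pow m.ne_zero _

theorem two_ne_of_char (h : 3 ≤ ringChar F) : (2 : F) ≠ 0 := fun e => by
  have := Nat.le_of_dvd two_pos ((ringChar.spec F 2).1 e)
  omega

theorem two_eq_of_four (h : Fintype.card F = 4) : (2 : F) = 0 :=
  (ringChar.spec F 2).2 (by rw [char_eq Nat.prime_two (n := 2) h])

theorem not_dvd_7 {p : ℕ} (hp : p.Prime) (h : 11 ≤ p) : ¬ p ∣ (7 - 1) * 7 * (7 + 1) := fun e => by
  rcases (hp.dvd_mul).1 e with e | e
  · rcases (hp.dvd_mul).1 e with e | e <;> have := Nat.le_of_dvd (by norm_num) e <;> omega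
  · have := Nat.le_of_dvd (by norm_num) e; omega

theorem not_dvd_9 {p : ℕ} (hp : p.Prime) (h : 7 ≤ p) : ¬ p ∣ (9 - 1) * 9 * (9 + 1) := fun e => by
  rw [show (9 - 1) * 9 * (9 + 1) = 2 ^ 4 * 3 ^ 2 * 5 from rfl] at e
  rcases (hp.dvd_mul).1 e with e | e
  · rcases (hp.dvd_mul).1 e with e | e <;>
      have := Nat.le_of_dvd (by norm_num) (hp.dvd_of_dvd_pow e) <;> omega
  · have := Nat.le_of_dvd (by norm_num) e; omega

theorem center_three {R : Subgroup 𝐆} (hR : IsLinearSymplecticTypeData 3 R) :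
    Nat.card (Subgroup.center R) = 3 := by
  obtain ⟨_, _, -, -, h | h | h⟩ := hR.field
  exacts [h.2.2.1, absurd h.1 (by norm_num), absurd h.1 (by norm_num)]

end Cfsg.Agent.H85.L3
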