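/-
Maximal totally singular subspaces of a hyperbolic quadratic space.
-/
import Cfsg.Agent.H27.Quad
import Cfsg.Agent.H67.QuadStd

set_option autoImplicit false

namespace Cfsg.Agent.H85

open Module QuadraticMap Submodule

variable {F V : Type*} [Field F] [AddCommGroup V] [Module F V] [FiniteDimensional F V]
  {Q : QuadraticForm F V} {m : ℕ}

/-- totally singular of dimension `m` -/
def Lag (Q : QuadraticForm F V) (m : ℕ) (W : Submodule F V) : Prop :=
  finrank F W = m ∧ ∀ w ∈ W, Q w = 0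

/-- the perpendicular space -/
abbrev qperp (Q : QuadraticForm F V) (W : Submodule F V) : Submodule F V :=
  LinearMap.BilinForm.orthogonal (polarBilin Q) W

omit [FiniteDimensional F V] in
theorem mem_qperp {W : Submodule F V} {v : V} : v ∈ qperp Q W ↔ ∀ w ∈ W, polar Q w v = 0 := Iff.rfl

omit [FiniteDimensional F V] in
theorem polar_eq_zero_of_ts {W : Submodule F V} (h : ∀ w ∈ W, Q w = 0) {u v : V} (hu : u ∈ W)
    (hv : v ∈ W) : polar Q u v = 0 := by
  rw [polar, h _ (W.add_mem hu hv), h _ hu, h _ hv]; ring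

theorem finrank_qperp (hQ : (polarBilin Q).Nondegenerate) (hV : finrank F V = 2 * m)
    (W : Submodule F V) : finrank F (qperp Q W) + finrank F W = 2 * m := by
  have := W.finrank_le
  rw [LinearMap.BilinForm.finrank_orthogonal hQ]
  omega

theorem qperp_qperp (hQ : (polarBilin Q).Nondegenerate) (W : Submodule F V) :
    qperp Q (qperp Q W) = W :=
  LinearMap.BilinForm.orthogonal_orthogonal hQ
    (fun x y h => by rw [polarBilin_apply_apply] at h ⊢; rw [polar_comm, h]) W

theorem Lag.qperp_eq (hQ : (polarBilin Q).Nondegenerate) (hV : finrank F V = 2 * m)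
    {W : Submodule F V} (hW : Lag Q m W) : qperp Q W = W := by
  have := finrank_qperp hQ hV W
  refine (eq_of_le_of_finrank_le (show W ≤ qperp Q W from
    fun v hv w hw => polar_eq_zero_of_ts hW.2 hw hv) ?_).symm
  have := hW.1
  omega

theorem Lag.finrank_inf_qperp (hQ : (polarBilin Q).Nondegenerate) (hV : finrank F V = 2 * m)
    {U H : Submodule F V} (hU : Lag Q m U) (hH : finrank F H + 1 = m) :
    finrank F ↥(U ⊓ qperp Q H) = finrank F ↥(U ⊓ H) + 1 := by
  have h1 : U ⊓ qperp Q H = qperp Q (U ⊔ H) := by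
    ext v
    rw [mem_inf, ← hU.qperp_eq hQ hV]
    rw [hU.qperp_eq hQ hV]
    constructor
    · rintro ⟨h1, h2⟩ w hw
      obtain ⟨a, ha, b, hb, rfl⟩ := mem_sup.1 hw
      change polar Q _ _ = 0
      rw [polar_add_left, polar_eq_zero_of_ts hU.2 ha h1, mem_qperp.1 h2 b hb, add_zero]
    · intro h
      refine ⟨?_, fun w hw => h w (mem_sup_right hw)⟩
      rw [← hU.qperp_eq hQ hV]
      exact fun w hw => h w (mem_sup_left hw)
  have h2 := finrank_qperp hQ hV (U ⊔ H)
  have h3 := finrank_sup_add_finrank_inf_eq U H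
  have := hU.1
  rw [h1]
  omega

theorem Lag.exists_other (hQ : (polarBilin Q).Nondegenerate) (hV : finrank F V = 2 * m)
    {W H : Submodule F V} (hW : Lag Q m W) (hHW : H ≤ W) (hH : finrank F H + 1 = m) :
    ∃ W', Lag Q m W' ∧ H ≤ W' ∧ W ⊓ W' = H ∧ ∀ v ∈ qperp Q H, Q v = 0 → v ∈ W ∨ v ∈ W' := by
  have hHs : ∀ w ∈ H, Q w = 0 := fun w hw => hW.2 w (hHW hw)
  obtain ⟨e, heW, heH⟩ : ∃ e ∈ W, e ∉ H := by
    by_contra! h
    have := Submodule.finrank_mono (show W ≤ H from h)
    have := hW.1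
    omega
  have hWe : H ⊔ span F {e} = W := by
    refine eq_of_le_of_finrank_le (sup_le hHW ((span_singleton_le_iff_mem _ _).2 heW)) ?_
    rw [finrank_sup_span_singleton heH, hW.1, hH]
  have heP : e ∈ qperp Q H := fun w hw => polar_eq_zero_of_ts hW.2 (hHW hw) heW
  obtain ⟨y, hy, hey⟩ : ∃ y ∈ qperp Q H, polar Q e y ≠ 0 := by
    by_contra! h
    refine heH ?_
    rw [← qperp_qperp hQ H]
    exact fun w hw => (polar_comm _ _ _).trans (h w hw)
  obtain ⟨f, hf, hQf, hef⟩ := H27.exists_singular_partner _ heP hy (hW.2 e heW) hey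
  have hfW : f ∉ W := fun h => by
    rw [polar_eq_zero_of_ts hW.2 heW h] at hef
    exact zero_ne_one hef
  have hfH : f ∉ H := fun h => hfW (hHW h)
  have hP : W ⊔ span F {f} = qperp Q H := by
    refine eq_of_le_of_finrank_le (sup_le (fun v hv w hw => polar_eq_zero_of_ts hW.2 (hHW hw) hv)
      ((span_singleton_le_iff_mem _ _).2 hf)) ?_
    have := finrank_qperp hQ hV H
    rw [finrank_sup_span_singleton hfW, hW.1]
    omega
  refine ⟨H ⊔ span F {f}, ⟨by rw [finrank_sup_span_singleton hfH, hH], fun w hw => ?_⟩,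
    le_sup_left, le_antisymm ?_ (le_inf hHW le_sup_left), fun v hv hQv => ?_⟩
  · obtain ⟨a, ha, b, hb, rfl⟩ := mem_sup.1 hw
    obtain ⟨c, rfl⟩ := mem_span_singleton.1 hb
    rw [H27.quad_add_smul, hHs a ha, mem_qperp.1 hf a ha, hQf]; ring
  · rintro w ⟨h1, h2⟩
    obtain ⟨a, ha, b, hb, rfl⟩ := mem_sup.1 h2
    obtain ⟨c, rfl⟩ := mem_span_singleton.1 hb
    have := polar_eq_zero_of_ts hW.2 heW h1
    rw [polar_add_right, polar_smul_right, polar_eq_zero_of_ts hW.2 heW (hHW ha), hef, zero_add,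
      smul_eq_mul, mul_one] at this
    simpa [this] using ha
  · rw [← hP] at hv
    obtain ⟨w, hw, b, hb, rfl⟩ := mem_sup.1 hv
    obtain ⟨c, rfl⟩ := mem_span_singleton.1 hb
    by_cases hc : c = 0
    · left; simpa [hc] using hw
    right
    rw [H27.quad_add_smul, hW.2 w hw, hQf] at hQv
    rw [← hWe] at hw
    obtain ⟨a, ha, b, hb, rfl⟩ := mem_sup.1 hw
    obtain ⟨d, rfl⟩ := mem_span_singleton.1 hb
    rw [polar_add_left, polar_smul_left, mem_qperp.1 hf a ha, hef] at hQv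
    have hd : d = 0 := by simpa [hc] using hQv
    rw [hd, zero_smul, add_zero]
    exact add_mem (mem_sup_left ha) (mem_sup_right (smul_mem _ _ (mem_span_singleton_self f)))

theorem Lag.finrank_inf_step (hQ : (polarBilin Q).Nondegenerate) (hV : finrank F V = 2 * m)
    {U W W' H : Submodule F V} (hU : Lag Q m U) (hW : Lag Q m W) (hW' : Lag Q m W')
    (hH : finrank F H + 1 = m) (hWW : W ⊓ W' = H)
    (h : ∀ v ∈ qperp Q H, Q v = 0 → v ∈ W ∨ v ∈ W') :
    finrank F ↥(U ⊓ W) = finrank F ↥(U ⊓ W') + 1 ∨ finrank F ↥(U ⊓ W') = finrank F ↥(U ⊓ W) + 1 := by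
  have h1 := hU.finrank_inf_qperp hQ hV hH
  obtain ⟨e, he, heH⟩ : ∃ e ∈ U ⊓ qperp Q H, e ∉ H := by
    by_contra! h2
    have := Submodule.finrank_mono (show U ⊓ qperp Q H ≤ U ⊓ H from fun v hv => ⟨hv.1, h2 v hv⟩)
    omega
  have key : ∀ X X' : Submodule F V, Lag Q m X → Lag Q m X' → X ⊓ X' = H → e ∈ X →
      finrank F ↥(U ⊓ X) = finrank F ↥(U ⊓ X') + 1 := by
    intro X X' hX hX' hXX heX
    have hle : ∀ Y, Lag Q m Y → H ≤ Y → U ⊓ Y ≤ U ⊓ qperp Q H := fun Y hY hHY v hv =>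
      ⟨hv.1, fun w hw => polar_eq_zero_of_ts hY.2 (hHY hw) hv.2⟩
    have hHX : H ≤ X := hXX ▸ inf_le_left
    have hHX' : H ≤ X' := hXX ▸ inf_le_right
    have a1 := Submodule.finrank_mono (hle X hX hHX)
    have a2 : U ⊓ H < U ⊓ X :=
      lt_of_le_of_ne (inf_le_inf_left _ hHX) fun h => heH (h.ge ⟨he.1, heX⟩).2
    have a3 := Submodule.finrank_lt_finrank_of_lt a2
    have a4 : U ⊓ X' < U ⊓ qperp Q H :=
      lt_of_le_of_ne (hle X' hX' hHX') fun h => heH (hXX ▸ ⟨heX, (h.ge he).2⟩)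
    have a5 := Submodule.finrank_lt_finrank_of_lt a4
    have a6 := Submodule.finrank_mono (inf_le_inf_left U hHX')
    omega
  rcases h e he.2 (hU.2 e he.1) with h2 | h2
  · exact Or.inl (key W W' hW hW' hWW h2)
  · exact Or.inr (key W' W hW' hW (by rw [inf_comm, hWW]) h2)

theorem Lag.parity (hQ : (polarBilin Q).Nondegenerate) (hV : finrank F V = 2 * m)
    {U W X : Submodule F V} (hU : Lag Q m U) (hW : Lag Q m W) (hX : Lag Q m X) :
    Even ((m - finrank F ↥(U ⊓ W)) + (m - finrank F ↥(W ⊓ X)) + (m - finrank F ↥(U ⊓ X))) := by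
  induction hk : m - finrank F ↥(W ⊓ X) generalizing W with
  | zero =>
    have h1 : W ⊓ X = W := eq_of_le_of_finrank_le inf_le_left (by have := hW.1; omega)
    have h2 : W ⊓ X = X := eq_of_le_of_finrank_le inf_le_right (by have := hX.1; omega)
    rw [← h1, h2, add_zero]
    exact ⟨_, rfl⟩
  | succ k ih =>
    obtain ⟨x, hxX, hxW⟩ : ∃ x ∈ X, x ∉ W := by
      by_contra! h
      rw [inf_eq_right.2 (show X ≤ W from h), hX.1] at hk
      omega
    have hx0 : x ≠ 0 := by rintro rfl; exact hxW W.zero_mem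
    let H := W ⊓ qperp Q (span F {x})
    have hH : finrank F H + 1 = m := by
      have h1 := finrank_sup_add_finrank_inf_eq W (qperp Q (span F {x}))
      have h2 := finrank_qperp hQ hV (span F {x})
      rw [finrank_span_singleton hx0] at h2
      have h3 : qperp Q (span F {x}) < W ⊔ qperp Q (span F {x}) := by
        refine lt_of_le_of_ne le_sup_right fun h => hxW ?_
        rw [← hW.qperp_eq hQ hV]
        exact fun w hw => (polar_comm _ _ _).trans
          (mem_qperp.1 (h.ge (mem_sup_left hw)) x (mem_span_singleton_self x))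
      have h4 := Submodule.finrank_lt_finrank_of_lt h3
      have h5 := (W ⊔ qperp Q (span F {x})).finrank_le
      have := hW.1
      simp only [H]
      omega
    obtain ⟨W', hW', hHW', hWW, hv⟩ := hW.exists_other hQ hV inf_le_left hH
    have hxW' : x ∈ W' := (hv x (fun w hw => (polar_comm _ _ _).trans
      (mem_qperp.1 hw.2 x (mem_span_singleton_self x))) (hX.2 x hxX)).resolve_left hxW
    have h1 := hU.finrank_inf_step hQ hV hW hW' hH hWW hv
    have h2 := hX.finrank_inf_step hQ hV hW hW' hH hWW hv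
    have h3 : X ⊓ W < X ⊓ W' := by
      refine lt_of_le_of_ne (fun v hv => ⟨hv.1, hHW' ⟨hv.2, fun w hw => ?_⟩⟩)
        fun h => hxW (h.ge ⟨hxX, hxW'⟩).2
      exact polar_eq_zero_of_ts hX.2 ((span_singleton_le_iff_mem _ _).2 hxX hw) hv.1
    have h4 := Submodule.finrank_lt_finrank_of_lt h3
    rw [inf_comm X, inf_comm X] at h2 h4
    have h5 := ih hW' (by omega)
    have h6 : finrank F ↥(U ⊓ W) ≤ m := hU.1 ▸ Submodule.finrank_mono inf_le_left
    have h7 : finrank F ↥(U ⊓ W') ≤ m := hU.1 ▸ Submodule.finrank_mono inf_le_left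
    rw [Nat.even_iff] at h5 ⊢
    omega

omit [FiniteDimensional F V] in
theorem Lag.exists_hyperplane {W : Submodule F V} (hW : Lag Q m W) (hm : 1 ≤ m) :
    ∃ H ≤ W, finrank F H + 1 = m := by
  obtain ⟨f, hf⟩ := exists_linearIndependent_of_le_finrank (R := F) (M := W) (n := m - 1)
    (by have := hW.1; omega)
  refine ⟨span F (Set.range (W.subtype ∘ f)), span_le.2 ?_, ?_⟩
  · rintro _ ⟨i, rfl⟩; exact (f i).2
  · rw [finrank_span_eq_card (hf.map' _ W.ker_subtype), Fintype.card_fin]; omega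

theorem Lag.card_over (hQ : (polarBilin Q).Nondegenerate) (hV : finrank F V = 2 * m)
    {E H : Submodule F V} (hE : Lag Q m E) (hH : finrank F H + 1 = m) (hHs : ∀ w ∈ H, Q w = 0) :
    ∃ W W', Lag Q m W ∧ Lag Q m W' ∧ H ≤ W ∧ H ≤ W' ∧ W ≠ W' ∧
      ∀ X, Lag Q m X → H ≤ X → X = W ∨ X = W' := by
  have h1 := hE.finrank_inf_qperp hQ hV hH
  obtain ⟨e, he, heH⟩ : ∃ e ∈ E ⊓ qperp Q H, e ∉ H := by
    by_contra! h2
    have := Submodule.finrank_mono (show E ⊓ qperp Q H ≤ E ⊓ H from fun v hv => ⟨hv.1, h2 v hv⟩)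
    omega
  have hW : Lag Q m (H ⊔ span F {e}) := by
    refine ⟨by rw [finrank_sup_span_singleton heH, hH], fun w hw => ?_⟩
    obtain ⟨a, ha, b, hb, rfl⟩ := mem_sup.1 hw
    obtain ⟨c, rfl⟩ := mem_span_singleton.1 hb
    rw [H27.quad_add_smul, hHs a ha, mem_qperp.1 he.2 a ha, hE.2 e he.1]; ring
  obtain ⟨W', hW', hHW', hWW, hv⟩ := hW.exists_other hQ hV le_sup_left hH
  refine ⟨_, W', hW, hW', le_sup_left, hHW', fun h => heH ?_, fun X hX hHX => ?_⟩
  · rw [← hWW, ← h, inf_idem]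
    exact mem_sup_right (mem_span_singleton_self e)
  obtain ⟨x, hxX, hxH⟩ : ∃ x ∈ X, x ∉ H := by
    by_contra! h
    have := Submodule.finrank_mono (show X ≤ H from h)
    have := hX.1
    omega
  have hXx : H ⊔ span F {x} = X := by
    refine eq_of_le_of_finrank_le (sup_le hHX ((span_singleton_le_iff_mem _ _).2 hxX)) ?_
    rw [finrank_sup_span_singleton hxH, hX.1, hH]
  have key : ∀ Y, Lag Q m Y → H ≤ Y → x ∈ Y → X = Y := fun Y hY hHY hx =>
    eq_of_le_of_finrank_le (hXx ▸ sup_le hHY ((span_singleton_le_iff_mem _ _).2 hx))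
      (by rw [hX.1, hY.1])
  exact (hv x (fun w hw => polar_eq_zero_of_ts hX.2 (hHX hw) hxX) (hX.2 x hxX)).imp
    (key _ hW le_sup_left) (key _ hW' hHW')

theorem exists_lag_plus (F : Type*) [Field F] (m : ℕ) : ∃ W, Lag (H67.QPlus F m) m W := by
  refine ⟨LinearMap.range (Function.ExtendByZero.linearMap F (Sum.inl : Fin m → Fin m ⊕ Fin m)),
    ?_, ?_⟩
  · rw [LinearMap.finrank_range_of_inj, finrank_fin_fun]
    intro a b h
    funext i
    simpa [Sum.inl_injective.extend_apply] using congrFun h (Sum.inl i)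
  · rintro _ ⟨a, rfl⟩
    rw [H67.coe_QPlus]
    simp [Cfsg.quadFormPlus]

end Cfsg.Agent.H85
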