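import Mathlib
import Cfsg.Agent.H3.ClassTwo

/-! The Gauss sum of the squaring map on a group that is elementary abelian modulo a central
subgroup. -/

set_option autoImplicit false

namespace Cfsg.Agent.H85

open Subgroup
open scoped commutatorElement

variable {G : Type*} [Group G]

theorem quad_sum [Fintype G] {Z : Subgroup G} (hZ : Z ≤ center G) (hsq : ∀ x : G, x ^ 2 ∈ Z)
    (hc : ∀ x y : G, ⁅x, y⁆ ∈ Z) (l : Z →* ℤˣ) :
    ∑ x : G, (l ⟨x ^ 2, hsq x⟩ : ℤ) = 0 ∨ ∃ R : Subgroup G,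
      (∀ y, y ∈ R ↔ ∀ x, l ⟨⁅y, x⁆, hc y x⟩ = 1) ∧
      (∑ x : G, (l ⟨x ^ 2, hsq x⟩ : ℤ)) ^ 2 = Nat.card G * Nat.card R := by
  classical
  have hcl : commutator G ≤ center G := commutator_le.mpr fun a _ b _ => hZ (hc a b)
  let b : G → G →* ℤˣ := fun y => MonoidHom.mk' (fun x => l ⟨⁅y, x⁆, hc y x⟩) fun x x' => by
    rw [← map_mul]
    exact congrArg l (Subtype.ext (H3.commutator_mul_right hcl y x x'))
  have hb : ∀ y y' x, b (y * y') x = b y x * b y' x := fun y y' x => by
    change l _ = l _ * l _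
    rw [← map_mul]
    exact congrArg l (Subtype.ext (H3.commutator_mul_left hcl y y' x))
  let B : G →* (G →* ℤˣ) := MonoidHom.mk' b fun y y' => MonoidHom.ext (hb y y')
  let q : G → ℤˣ := fun x => l ⟨x ^ 2, hsq x⟩
  have hq : ∀ x y, q (x * y) = b y x * (q x * q y) := fun x y => by
    change l _ = l _ * (l _ * l _)
    rw [← map_mul, ← map_mul]
    refine congrArg l (Subtype.ext ?_)
    simpa using H3.mul_pow_of_class_two hcl x y 2
  have h1 : (∑ x : G, (q x : ℤ)) ^ 2 = Nat.card G * ∑ y : B.ker, (q y : ℤ) := by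
    rw [sq, Finset.sum_mul_sum]
    have h2 : ∀ x : G, ∑ y : G, (q x : ℤ) * q y = ∑ y : G, (q y : ℤ) * b y x := fun x => by
      rw [← Equiv.sum_comp (Equiv.mulLeft x)]
      refine Finset.sum_congr rfl fun y _ => ?_
      rw [Equiv.coe_mulLeft, hq, ← Units.val_mul, ← Units.val_mul, mul_left_comm, ← mul_assoc (q x),
        Int.units_mul_self, one_mul, mul_comm]
    simp only [h2]
    rw [Finset.sum_comm]
    simp only [← Finset.mul_sum]
    have h3 : ∀ y : G, (q y : ℤ) * ∑ x : G, (b y x : ℤ) =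
        if y ∈ B.ker then (Nat.card G : ℤ) * q y else 0 := fun y => by
      split_ifs with h
      · have : b y = 1 := h
        simp [this, mul_comm]
      · have := sum_hom_units_eq_zero ((Units.coeHom ℤ).comp (b y)) fun h' => h
          (MonoidHom.ext fun x => Units.ext (DFunLike.congr_fun h' x))
        simp only [MonoidHom.comp_apply, Units.coeHom_apply] at this
        rw [this, mul_zero]
    simp only [h3]
    rw [← Finset.sum_filter, ← Finset.mul_sum]
    congr 1
    exact Finset.sum_subtype _ (by simp) fun y => (q y : ℤ)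
  let q' : B.ker →* ℤ := (Units.coeHom ℤ).comp (MonoidHom.mk' (fun y => q y) fun x y => by
    have : b y = 1 := y.2
    rw [coe_mul, hq, this, MonoidHom.one_apply, one_mul])
  by_cases h : q' = 1
  · refine Or.inr ⟨B.ker, fun y => ⟨fun hy x => DFunLike.congr_fun (show b y = 1 from hy) x,
      fun hy => MonoidHom.ext hy⟩, ?_⟩
    have h2 : ∀ y : B.ker, (q y : ℤ) = 1 := fun y => DFunLike.congr_fun h y
    rw [h1]
    simp [h2]
  · left
    have h2 : ∑ y : B.ker, (q y : ℤ) = 0 := sum_hom_units_eq_zero q' h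
    rw [h2, mul_zero] at h1
    exact pow_eq_zero_iff two_ne_zero |>.mp h1

/-- the sign character of a subgroup of index two. -/
theorem exists_sign_hom {Z : Type*} [Group Z] (K : Subgroup Z) (hK : K.index = 2) :
    ∃ l : Z →* ℤˣ, ∀ z, (z ∈ K → l z = 1) ∧ (z ∉ K → l z = -1) := by
  classical
  refine ⟨MonoidHom.mk' (fun z => if z ∈ K then 1 else -1) fun a b => ?_,
    fun z => ⟨fun h => if_pos h, fun h => if_neg h⟩⟩
  have := mul_mem_iff_of_index_two hK (a := a) (b := b)
  by_cases ha : a ∈ K <;> by_cases hb : b ∈ K <;> simp_all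

theorem sum_sign {α : Type*} [Fintype α] (f : α → ℤˣ) :
    ∑ x, (f x : ℤ) = 2 * Nat.card {x // f x = 1} - Nat.card α := by
  classical
  have h : ∀ x, (f x : ℤ) = 2 * (if f x = 1 then 1 else 0) - 1 := fun x => by
    rcases Int.units_eq_one_or (f x) with h | h <;> simp [h]
  simp only [h]
  rw [Finset.sum_sub_distrib, ← Finset.mul_sum, Finset.sum_boole]
  simp [Fintype.card_subtype]

theorem eq_of_sq_eq_two_pow {T : ℤ} {n : ℕ} (h : T ^ 2 = 2 ^ n) :
    ∃ s, n = 2 * s ∧ (T = 2 ^ s ∨ T = -2 ^ s) := by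
  have h1 : T.natAbs ^ 2 = 2 ^ n := by
    have := congrArg Int.natAbs h
    simpa [Int.natAbs_pow] using this
  obtain ⟨s, -, hs⟩ := (Nat.dvd_prime_pow Nat.prime_two).mp
    ((dvd_pow_self T.natAbs two_ne_zero).trans h1.dvd)
  refine ⟨s, ?_, ?_⟩
  · rw [hs, ← pow_mul] at h1
    rw [← Nat.pow_right_injective le_rfl h1, mul_comm]
  · rcases Int.natAbs_eq T with h2 | h2 <;> rw [h2, hs] <;> simp

end Cfsg.Agent.H85
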