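import Cfsg.Agent.H85.Action

/-! Relative Maschke theorem in sections of abelian groups; complements of homocyclic subgroups. -/

set_option autoImplicit false

namespace Cfsg.Agent.H85

open Subgroup

variable {A V : Type*} [Group A] [CommGroup V] [MulDistribMulAction A V]

/-- Maschke's theorem in an elementary abelian section `H / N`. -/
theorem exists_invariant_rel_compl [Finite A] [Finite V] {p : ℕ} (hp : p.Prime)
    (hcop : (Nat.card A).Coprime (Nat.card V)) {N K H : Subgroup V} (hNK : N ≤ K) (hKH : K ≤ H)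
    (hN : ∀ a : A, ∀ x ∈ N, a • x ∈ N) (hK : ∀ a : A, ∀ x ∈ K, a • x ∈ K)
    (hH : ∀ a : A, ∀ x ∈ H, a • x ∈ H) (hpow : ∀ x ∈ H, x ^ p ∈ N) :
    ∃ L : Subgroup V, (∀ a : A, ∀ x ∈ L, a • x ∈ L) ∧ K ⊓ L = N ∧ K ⊔ L = H := by
  let _ := subAction H hH
  let _ := quotAction (A := A) (N.subgroupOf H) fun a x hx => hN a x hx
  set f := QuotientGroup.mk' (N.subgroupOf H)
  have hf : Function.Surjective f := QuotientGroup.mk'_surjective _
  have hk : f.ker = N.subgroupOf H := QuotientGroup.ker_mk' _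
  obtain ⟨W, hW⟩ := exists_isCompl_of_exponent hp (V := H ⧸ N.subgroupOf H) (fun v => by
    obtain ⟨x, rfl⟩ := QuotientGroup.mk_surjective v
    rw [← QuotientGroup.mk_pow, QuotientGroup.eq_one_iff]
    exact hpow x x.2) ((K.subgroupOf H).map f)
  obtain ⟨W', hW', hinv⟩ := exists_invariant_isCompl (A := A) (hcop.coprime_dvd_right
    ((card_quotient_dvd_card _).trans (card_subgroup_dvd_card H))) _ (by
      rintro a _ ⟨x, hx, rfl⟩
      exact ⟨a • x, hK a x hx, rfl⟩) W hW
  have hle : f.ker ≤ K.subgroupOf H := hk.le.trans (subgroupOf_mono _ hNK)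
  refine ⟨(W'.comap f).map H.subtype, ?_, ?_, ?_⟩
  · rintro a _ ⟨x, hx, rfl⟩
    exact ⟨a • x, hinv a _ hx, rfl⟩
  · conv_lhs => rw [← map_subgroupOf_eq_of_le hKH]
    rw [← map_inf _ _ _ H.subtype_injective, ← comap_map_eq_self hle, ← comap_inf,
      hW'.inf_eq_bot, MonoidHom.comap_bot, hk, map_subgroupOf_eq_of_le (hNK.trans hKH)]
  · conv_lhs => rw [← map_subgroupOf_eq_of_le hKH]
    rw [← Subgroup.map_sup, ← comap_map_eq_self hle, comap_sup_eq _ _ _ hf,
      hW'.sup_eq_top, comap_top, ← MonoidHom.range_eq_map, range_subtype]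

/-- A subgroup `H` of an abelian group of exponent `p ^ (e + 1)` in which every element of order
dividing `p ^ e` is a `p`-th power has a complement. -/
theorem exists_isCompl_of_homocyclic [Finite V] {p e : ℕ} (hp : p.Prime)
    (hV : ∀ v : V, v ^ p ^ (e + 1) = 1) (H : Subgroup V)
    (hH : ∀ h ∈ H, h ^ p ^ e = 1 → ∃ k ∈ H, k ^ p = h) : ∃ C : Subgroup V, IsCompl H C := by
  obtain ⟨C, hC, hmax⟩ := Set.Finite.exists_maximal
    (Set.toFinite {W : Subgroup V | Disjoint H W}) ⟨⊥, disjoint_bot_right⟩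
  refine ⟨C, hC, codisjoint_iff.mpr ?_⟩
  have key : ∀ v : V, v ^ p ∈ H ⊔ C → v ∈ H ⊔ C := by
    intro v hv
    obtain ⟨h, hh, c, hc, he⟩ := mem_sup.mp hv
    have h1 : h ^ p ^ e = 1 := by
      have h2 : h ^ p ^ e * c ^ p ^ e = 1 := by rw [← mul_pow, he, ← pow_mul, ← pow_succ', hV]
      refine disjoint_def.mp hC (pow_mem hh _) ?_
      rw [eq_inv_of_mul_eq_one_left h2]
      exact inv_mem (pow_mem hc _)
    obtain ⟨k, hk, rfl⟩ := hH h hh h1
    suffices k⁻¹ * v ∈ H ⊔ C by simpa using mul_mem (mem_sup_left hk) this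
    have h2 : (k⁻¹ * v) ^ p ∈ C := by rwa [mul_pow, ← he, inv_pow, inv_mul_cancel_left]
    generalize k⁻¹ * v = w at h2
    by_contra hw
    have h3 : Disjoint H (C ⊔ zpowers w) := by
      rw [disjoint_def]
      intro u hu hu'
      obtain ⟨d, hd, _, ⟨j, rfl⟩, rfl⟩ := mem_sup.mp hu'
      by_cases hj : (p : ℤ) ∣ j
      · obtain ⟨m, rfl⟩ := hj
        refine disjoint_def.mp hC hu (mul_mem hd ?_)
        simp only
        rw [zpow_mul, zpow_natCast]
        exact zpow_mem h2 m
      · exfalso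
        apply hw
        obtain ⟨a, b, hab⟩ := ((Nat.prime_iff_prime_int.mp hp).irreducible.coprime_iff_not_dvd).mpr hj
        have h4 : w ^ j ∈ H ⊔ C := by
          simpa using mul_mem (inv_mem (mem_sup_right hd)) (mem_sup_left hu : _ ∈ H ⊔ C)
        have h5 : w = (w ^ p) ^ a * (w ^ j) ^ b := by
          rw [← zpow_natCast, ← zpow_mul, ← zpow_mul, ← zpow_add, mul_comm _ a, mul_comm _ b, hab,
            zpow_one]
        rw [h5]
        exact mul_mem (zpow_mem (mem_sup_right h2) a) (zpow_mem h4 b)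
    exact hw (mem_sup_right (hmax h3 le_sup_left (mem_sup_right (mem_zpowers w))))
  have key2 : ∀ (n : ℕ) (v : V), v ^ p ^ n ∈ H ⊔ C → v ∈ H ⊔ C := by
    intro n
    induction n with
    | zero => simp
    | succ n ih => intro v hv; exact key v (ih _ (by rwa [← pow_mul, ← pow_succ']))
  exact (eq_top_iff' _).mpr fun v => key2 (e + 1) v (by rw [hV]; exact one_mem _)

end Cfsg.Agent.H85
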