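/-
The theta series of a positive definite integral lattice: transformation under `τ ↦ -1/τ`.
-/
import Mathlib

set_option autoImplicit false

namespace Cfsg.Agent.H85

open Matrix Complex
open scoped Real

theorem exists_diag {n : ℕ} (B : Matrix (Fin n) (Fin n) ℤ) (hsymm : B.IsSymm)
    (hpos : ∀ x : Fin n → ℤ, x ≠ 0 → 0 < x ⬝ᵥ (B *ᵥ x)) :
    ∃ (P : Matrix (Fin n) (Fin n) ℤ) (d : Fin n → ℤ), P.det ≠ 0 ∧ (∀ i, 0 < d i) ∧
      Pᵀ * B * P = diagonal d := by
  classical
  let β := Matrix.toBilin' (B.map (Int.cast : ℤ → ℚ))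
  have hβ : LinearMap.IsSymm β := by
    refine ⟨fun x y => ?_⟩
    simp only [β, toBilin'_apply', RingHom.id_apply]
    rw [dotProduct_mulVec, ← mulVec_transpose, dotProduct_comm, ← transpose_map, hsymm.eq]
  obtain ⟨v0, hv0⟩ := LinearMap.BilinForm.exists_orthogonal_basis hβ
  let v := v0.reindex (finCongr (Module.finrank_fin_fun ℚ))
  have hv : ∀ i j, i ≠ j → β (v i) (v j) = 0 := fun i j h => by
    simp only [v, Module.Basis.reindex_apply]
    exact hv0 (by simpa using h)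
  obtain ⟨b, hb⟩ := IsLocalization.exist_integer_multiples_of_finite (nonZeroDivisors ℤ)
    (fun p : Fin n × Fin n => v p.2 p.1)
  choose P0 hP0 using hb
  let P : Matrix (Fin n) (Fin n) ℤ := Matrix.of fun i j => P0 (i, j)
  have hP : ∀ i j, (P i j : ℚ) = (b : ℤ) * v j i := fun i j => by
    have := hP0 (i, j)
    simpa [P] using this
  have hb0 : ((b : ℤ) : ℚ) ≠ 0 := by exact_mod_cast nonZeroDivisors.coe_ne_zero b
  have hent : ∀ j k, (Pᵀ * B * P) j k = (fun i => P i j) ⬝ᵥ (B *ᵥ fun i => P i k) := by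
    intro j k
    simp only [Matrix.mul_apply, transpose_apply, dotProduct, mulVec, Finset.sum_mul,
      Finset.mul_sum, mul_assoc]
    exact Finset.sum_comm
  have hoff : ∀ j k, j ≠ k → (Pᵀ * B * P) j k = 0 := by
    intro j k h
    have h1 := hv j k h
    have h2 : (((Pᵀ * B * P) j k : ℤ) : ℚ) = (b : ℤ) * (b : ℤ) * β (v j) (v k) := by
      rw [hent]
      simp only [β, toBilin'_apply', dotProduct, mulVec, Int.cast_sum, Int.cast_mul, hP,
        Finset.mul_sum, map_apply]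
      exact Finset.sum_congr rfl fun _ _ => Finset.sum_congr rfl fun _ _ => by ring
    rw [h1, mul_zero] at h2
    exact_mod_cast h2
  have hd : ∀ j, 0 < (Pᵀ * B * P) j j := by
    intro j
    rw [hent]
    refine hpos _ fun h => v.ne_zero j (funext fun i => ?_)
    have := hP i j
    rw [show P i j = 0 from congrFun h i] at this
    simpa [hb0] using this
  have hD : Pᵀ * B * P = diagonal fun j => (Pᵀ * B * P) j j := by
    ext j k
    by_cases h : j = k
    · subst h; simp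
    · rw [hoff j k h, diagonal_apply_ne _ h]
  refine ⟨P, _, fun h => ?_, hd, hD⟩
  have := congrArg det hD
  rw [det_mul, h, mul_zero, det_diagonal] at this
  exact (Finset.prod_pos fun j _ => hd j).ne this

theorem summable_pi_prod {n : ℕ} (f : Fin n → ℤ → ℂ) (hf : ∀ i, Summable fun k => ‖f i k‖) :
    (Summable fun k : Fin n → ℤ => ‖∏ i, f i (k i)‖) ∧
      ∑' k : Fin n → ℤ, ∏ i, f i (k i) = ∏ i, ∑' k, f i k := by
  induction n with
  | zero => exact ⟨Summable.of_finite, by simp⟩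
  | succ n ih =>
    obtain ⟨h1, h2⟩ := ih (fun i => f i.succ) fun i => hf _
    obtain ⟨e, he0⟩ : ∃ e : ℤ × (Fin n → ℤ) ≃ (Fin (n + 1) → ℤ), ∀ p, e p = Fin.cons p.1 p.2 :=
      ⟨Fin.consEquiv fun _ : Fin (n + 1) => ℤ, fun _ => rfl⟩
    obtain ⟨g, hg⟩ : ∃ g : (Fin n → ℤ) → ℂ, ∀ k, ∏ i : Fin n, f i.succ (k i) = g k := ⟨_, fun _ => rfl⟩
    simp only [hg] at h1 h2
    have he : ∀ p : ℤ × (Fin n → ℤ), ∏ i, f i (e p i) = f 0 p.1 * g p.2 := by
      intro p; rw [Fin.prod_univ_succ, he0, ← hg]; rfl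
    refine ⟨?_, ?_⟩
    · rw [← e.summable_iff]
      refine ((hf 0).mul_norm h1).congr fun p => ?_
      rw [Function.comp_apply, he]
    · rw [← e.tsum_eq, Fin.prod_univ_succ, ← h2, tsum_mul_tsum_of_summable_norm (hf 0) h1]
      exact tsum_congr he

theorem hasSum_pi_prod {n : ℕ} (f : Fin n → ℤ → ℂ) (s : Fin n → ℂ) (hf : ∀ i, HasSum (f i) (s i)) :
    HasSum (fun k : Fin n → ℤ => ∏ i, f i (k i)) (∏ i, s i) := by
  obtain ⟨h1, h2⟩ := summable_pi_prod f fun i => (hf i).summable.norm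
  have := h1.of_norm.hasSum
  rwa [h2, Finset.prod_congr rfl fun i _ => (hf i).tsum_eq] at this

theorem hasSum_prod_finite {α β : Type*} [Fintype α] (f : α × β → ℂ) (s : α → ℂ)
    (hf : ∀ a, HasSum (fun b => f (a, b)) (s a)) : HasSum f (∑ a, s a) := by
  have h1 : Summable f := by
    refine Summable.of_norm ((summable_prod_of_nonneg fun _ => norm_nonneg _).2 ⟨fun a => ?_, ?_⟩)
    · exact (hf a).summable.norm
    · exact Summable.of_finite
  have h2 := h1.hasSum.prod_fiberwise hf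
  rw [← (hasSum_fintype s).unique h2] at *
  rw [(hasSum_fintype s).unique (h1.hasSum.prod_fiberwise hf)]
  exact h1.hasSum

/-- the terms of the theta series -/
noncomputable def thT {n : ℕ} (B : Matrix (Fin n) (Fin n) ℤ) (τ : ℂ) (x : Fin n → ℤ) : ℂ :=
  cexp (π * I * τ * ((x ⬝ᵥ (B *ᵥ x) : ℤ) : ℂ))

theorem theta_trans {n : ℕ} (B : Matrix (Fin n) (Fin n) ℤ) (hsymm : B.IsSymm)
    (hpos : ∀ x : Fin n → ℤ, x ≠ 0 → 0 < x ⬝ᵥ (B *ᵥ x)) (hdet : B.det = 1) :
    (∀ τ : ℂ, 0 < τ.im → Summable (thT B τ)) ∧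
    DifferentiableOn ℂ (fun τ => ∑' x, thT B τ x) {τ | 0 < τ.im} ∧
    ∃ C : ℂ, ∀ τ : ℂ, 0 < τ.im →
      ∑' x, thT B τ x = C * (1 / (-I * τ) ^ (1 / 2 : ℂ)) ^ n * ∑' x, thT B (-1 / τ) x := by
  classical
  obtain ⟨P, d, hP, hd, hD⟩ := exists_diag B hsymm hpos
  set Pc : Matrix (Fin n) (Fin n) ℂ := P.map Int.cast with hPc
  set Bc : Matrix (Fin n) (Fin n) ℂ := B.map Int.cast with hBc
  have hPu : IsUnit Pc.det := by
    rw [hPc, show P.map Int.cast = (Int.castRingHom ℂ).mapMatrix P from rfl, ← RingHom.map_det]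
    exact (Int.cast_ne_zero.2 hP).isUnit
  have hDc : Pcᵀ * Bc * Pc = diagonal fun i => (d i : ℂ) := by
    have := congrArg (Int.castRingHom ℂ).mapMatrix hD
    rw [map_mul, map_mul] at this
    refine this.trans ?_
    simp [diagonal_map]
  let cst : (Fin n → ℤ) → (Fin n → ℂ) := fun x i => x i
  have hcast : ∀ (A : Matrix (Fin n) (Fin n) ℤ) x, cst (A *ᵥ x) = A.map Int.cast *ᵥ cst x := by
    intro A x; funext i; simp [cst, mulVec, dotProduct]
  have hcast2 : ∀ x y : Fin n → ℤ, ((x ⬝ᵥ y : ℤ) : ℂ) = cst x ⬝ᵥ cst y := by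
    intro x y; simp [cst, dotProduct]
  let u : (Fin n → ℤ) → (Fin n → ℂ) := fun x => Pc⁻¹ *ᵥ cst x
  have hu : ∀ x, Pc *ᵥ u x = cst x := fun x => by
    simp only [u, mulVec_mulVec, mul_nonsing_inv _ hPu, one_mulVec]
  have huadd : ∀ x y, u (x + y) = u x + u y := fun x y => by
    simp only [u, ← mulVec_add]; congr 1; funext i; simp [cst]
  have huP : ∀ k, u (P *ᵥ k) = cst k := fun k => by
    simp only [u, hcast, ← hPc, mulVec_mulVec, nonsing_inv_mul _ hPu, one_mulVec]
  have hq : ∀ x, ((x ⬝ᵥ (B *ᵥ x) : ℤ) : ℂ) = ∑ i, d i * u x i ^ 2 := by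
    intro x
    rw [hcast2, hcast, ← hBc, ← hu x]
    generalize u x = v
    rw [mulVec_mulVec, dotProduct_comm, dotProduct_mulVec, ← mulVec_transpose, mulVec_mulVec,
      ← mul_assoc, hDc]
    simp only [dotProduct, mulVec_diagonal]
    exact Finset.sum_congr rfl fun i _ => by ring
  let N : Submodule ℤ (Fin n → ℤ) := LinearMap.range P.mulVecLin
  have hPinj : Function.Injective P.mulVecLin := fun a b h => by
    have := congrArg u h
    simp only [mulVecLin_apply, huP] at this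
    funext i
    exact Int.cast_injective (α := ℂ) (congrFun this i)
  have hfin : Finite ((Fin n → ℤ) ⧸ N) :=
    Submodule.finiteQuotientOfFreeOfRankEq N (LinearMap.finrank_range_of_inj hPinj)
  have := Fintype.ofFinite ((Fin n → ℤ) ⧸ N)
  let s : ((Fin n → ℤ) ⧸ N) → (Fin n → ℤ) := Function.surjInv N.mkQ_surjective
  have hs : ∀ c, N.mkQ (s c) = c := Function.surjInv_eq _
  have hs2 : ∀ x, ∃ k, s (N.mkQ x) + P *ᵥ k = x := fun x => by
    obtain ⟨k, hk⟩ := (Submodule.Quotient.eq N).1 (hs (N.mkQ x)).symm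
    exact ⟨k, by rw [← mulVecLin_apply, hk]; abel⟩
  let e : ((Fin n → ℤ) ⧸ N) × (Fin n → ℤ) ≃ (Fin n → ℤ) :=
    Equiv.ofBijective (fun p => s p.1 + P *ᵥ p.2) ⟨by
      rintro ⟨c, k⟩ ⟨c', k'⟩ h
      have h1 : c = c' := by
        have := congrArg N.mkQ h
        have h0 : ∀ k, N.mkQ (P *ᵥ k) = 0 := fun k => (Submodule.Quotient.mk_eq_zero N).2 ⟨k, rfl⟩
        simpa only [map_add, hs, h0, add_zero] using this
      subst h1
      exact Prod.ext rfl (hPinj (add_left_cancel h)), fun x => (hs2 x).elim fun k hk => ⟨(_, k), hk⟩⟩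
  have hτd : ∀ τ : ℂ, 0 < τ.im → ∀ i, 0 < (τ * d i).im := fun τ hτ i => by
    simpa using mul_pos hτ (Int.cast_pos.2 (hd i))
  have hd0 : ∀ i, (d i : ℂ) ≠ 0 := fun i => Int.cast_ne_zero.2 (hd i).ne'
  have hmain : ∀ τ : ℂ, 0 < τ.im → HasSum (thT B τ) (∑ c, ∏ i,
      (1 / (-I * (τ * d i)) ^ (1 / 2 : ℂ) * jacobiTheta₂ (u (s c) i) (-1 / (τ * d i)))) := by
    intro τ hτ
    have hτ0 : τ ≠ 0 := by rintro rfl; simp at hτ
    rw [← e.hasSum_iff]
    refine hasSum_prod_finite _ _ fun c => ?_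
    have h1 := hasSum_pi_prod _ _ fun i =>
      (hasSum_jacobiTheta₂_term (τ * d i * u (s c) i) (hτd τ hτ i)).mul_left
        (cexp (π * I * τ * d i * u (s c) i ^ 2))
    convert h1 using 1
    · funext k
      change thT B τ (s c + P *ᵥ k) = _
      rw [thT, hq, huadd, huP, Finset.mul_sum, Complex.exp_sum]
      refine Finset.prod_congr rfl fun i _ => ?_
      rw [jacobiTheta₂_term, ← Complex.exp_add]
      congr 1
      simp only [Pi.add_apply, cst]; ring
    · refine Finset.prod_congr rfl fun i _ => ?_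
      rw [jacobiTheta₂_functional_equation (τ * d i * u (s c) i),
        mul_div_cancel_left₀ _ (mul_ne_zero hτ0 (hd0 i))]
      have : π * I * τ * d i * u (s c) i ^ 2 + -π * I * (τ * d i * u (s c) i) ^ 2 / (τ * d i) = 0 := by
        have := hd0 i
        field_simp; ring
      have h2 : cexp (π * I * τ * d i * u (s c) i ^ 2) *
          cexp (-π * I * (τ * d i * u (s c) i) ^ 2 / (τ * d i)) = 1 := by
        rw [← Complex.exp_add, this, Complex.exp_zero]
      linear_combination (-(1 / (-I * (τ * d i)) ^ (1 / 2 : ℂ) *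
        jacobiTheta₂ (u (s c) i) (-1 / (τ * d i)))) * h2
  have hneg : ∀ τ : ℂ, 0 < τ.im → 0 < (-1 / τ).im := fun τ hτ => by
    have hτ0 : τ ≠ 0 := by rintro rfl; simp at hτ
    rw [neg_div, neg_im, one_div, inv_im, neg_div, neg_neg]
    exact div_pos hτ (normSq_pos.2 hτ0)
  refine ⟨fun τ hτ => (hmain τ hτ).summable, ?_, ?_⟩
  · refine DifferentiableOn.congr (f := fun τ => ∑ c, ∏ i,
      (1 / (-I * (τ * d i)) ^ (1 / 2 : ℂ) * jacobiTheta₂ (u (s c) i) (-1 / (τ * d i)))) ?_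
      fun τ hτ => (hmain τ hτ).tsum_eq
    intro τ hτ
    have hτ0 : τ ≠ 0 := by rintro rfl; simp at hτ
    refine DifferentiableAt.differentiableWithinAt (DifferentiableAt.fun_sum fun c _ =>
      DifferentiableAt.fun_finsetProd fun i _ => DifferentiableAt.mul ?_ ?_)
    · refine DifferentiableAt.div (differentiableAt_const _) (DifferentiableAt.cpow (by fun_prop)
        (differentiableAt_const _) ?_) ?_
      · left
        simpa using hτd τ hτ i
      · rw [Ne, cpow_eq_zero_iff, not_and_or]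
        left
        exact mul_ne_zero (neg_ne_zero.2 I_ne_zero) (mul_ne_zero hτ0 (hd0 i))
    · refine (differentiableAt_jacobiTheta₂_snd _ (hneg _ (hτd τ hτ i))).comp τ
        (f := fun τ : ℂ => -1 / (τ * d i)) ?_
      exact DifferentiableAt.div (differentiableAt_const _) (by fun_prop)
        (mul_ne_zero hτ0 (hd0 i))
  -- character sums
  let χ : (Fin n → ℤ) → (Fin n → ℤ) → ℂ := fun m x => cexp (2 * π * I * (cst m ⬝ᵥ u x))
  have hχadd : ∀ m x y, χ m (x + y) = χ m x * χ m y := fun m x y => by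
    simp only [χ, huadd, dotProduct_add, mul_add, Complex.exp_add]
  have hχP : ∀ m k, χ m (P *ᵥ k) = 1 := fun m k => by
    simp only [χ, huP, ← hcast2]
    exact exp_eq_one_iff.2 ⟨m ⬝ᵥ k, by ring⟩
  have hχs : ∀ m x, χ m (s (N.mkQ x)) = χ m x := fun m x => by
    obtain ⟨k, hk⟩ := hs2 x
    conv_rhs => rw [← hk, hχadd, hχP, mul_one]
  let L : (Fin n → ℤ) → (Fin n → ℤ) := fun z => Pᵀ *ᵥ (B *ᵥ z)
  have hBu : IsUnit B.det := by rw [hdet]; exact isUnit_one
  have hL : ∀ z x, cst (L z) ⬝ᵥ u x = ((B *ᵥ z) ⬝ᵥ x : ℤ) := fun z x => by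
    rw [hcast, transpose_map, ← hPc, mulVec_transpose, ← dotProduct_mulVec, hu, hcast2]
  have hLinj : Function.Injective L := fun z z' h => by
    have h1 : B *ᵥ z = B *ᵥ z' := by
      funext i
      have h2 := hL z (Pi.single i 1)
      rw [h, hL] at h2
      simpa using (Int.cast_injective (α := ℂ) h2).symm
    have := congrArg (B⁻¹ *ᵥ ·) h1
    simpa only [mulVec_mulVec, nonsing_inv_mul _ hBu, one_mulVec] using this
  have hsum : ∀ m, ∑ c, χ m (s c) =
      if m ∈ Set.range L then (Fintype.card ((Fin n → ℤ) ⧸ N) : ℂ) else 0 := by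
    intro m
    split_ifs with h
    · obtain ⟨z, rfl⟩ := h
      have : ∀ x, χ (L z) x = 1 := fun x => by
        simp only [χ, hL]
        exact exp_eq_one_iff.2 ⟨_, by rw [mul_comm]⟩
      simp [this]
    · let ψ : AddChar ((Fin n → ℤ) ⧸ N) ℂ :=
        { toFun := fun c => χ m (s c)
          map_zero_eq_one' := by
            rw [← map_zero N.mkQ, hχs, ← mulVec_zero P, hχP]
          map_add_eq_mul' := fun a b => by
            rw [← hχadd, ← hχs m (s a + s b), map_add, hs, hs] }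
      refine (AddChar.sum_eq_zero_iff_ne_zero (ψ := ψ)).2 fun h0 => h ?_
      have h1 : ∀ j, ∃ w : ℤ, cst m ⬝ᵥ u (Pi.single j 1) = w := by
        intro j
        have h2 : ψ (N.mkQ (Pi.single j 1)) = 1 := by rw [h0]; rfl
        change χ m (s _) = 1 at h2
        rw [hχs] at h2
        obtain ⟨w, hw⟩ := exp_eq_one_iff.1 h2
        refine ⟨w, mul_left_cancel₀ two_pi_I_ne_zero (by rw [hw]; ring)⟩
      choose w hw using h1
      refine ⟨B⁻¹ *ᵥ w, ?_⟩
      simp only [L, mulVec_mulVec (M := B), mul_nonsing_inv _ hBu, one_mulVec]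
      have h3 : cst w = cst m ᵥ* Pc⁻¹ := by
        funext j
        have h4 : cst (Pi.single j 1) = Pi.single j 1 := by
          funext i; by_cases h : i = j <;> simp [cst, h]
        have := hw j
        simp only [u, h4, dotProduct_mulVec, dotProduct_single, mul_one] at this
        exact this.symm
      have h5 : cst (Pᵀ *ᵥ w) = cst m := by
        rw [hcast, transpose_map, ← hPc, mulVec_transpose, h3, vecMul_vecMul,
          nonsing_inv_mul _ hPu, vecMul_one]
      funext i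
      exact Int.cast_injective (α := ℂ) (congrFun h5 i)
  have hLq : ∀ z, ∑ i, (L z i : ℂ) ^ 2 / d i = ((z ⬝ᵥ (B *ᵥ z) : ℤ) : ℂ) := by
    intro z
    rw [hq]
    have h1 : cst (L z) = diagonal (fun i => (d i : ℂ)) *ᵥ u z := by
      rw [← hDc, hcast, hcast, transpose_map, ← hPc, ← hBc, ← hu, mulVec_mulVec, mulVec_mulVec]
    refine Finset.sum_congr rfl fun i _ => ?_
    have h2 := congrFun h1 i
    rw [mulVec_diagonal] at h2
    simp only [cst] at h2
    rw [h2]
    have := hd0 i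
    field_simp
  refine ⟨(∏ i, 1 / (d i : ℂ) ^ (1 / 2 : ℂ)) * Fintype.card ((Fin n → ℤ) ⧸ N), fun τ hτ => ?_⟩
  have hτ0 : τ ≠ 0 := by rintro rfl; simp at hτ
  rw [(hmain τ hτ).tsum_eq]
  let E : (Fin n → ℤ) → ℂ := fun m => cexp (π * I * (-1 / τ) * ∑ i, (m i : ℂ) ^ 2 / d i)
  have h1 : ∀ c, HasSum (fun m => χ m (s c) * E m)
      (∏ i, jacobiTheta₂ (u (s c) i) (-1 / (τ * d i))) := by
    intro c
    convert hasSum_pi_prod _ _ fun i => hasSum_jacobiTheta₂_term (u (s c) i) (hneg _ (hτd τ hτ i))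
      using 1
    funext m
    simp only [χ, E, jacobiTheta₂_term, ← Complex.exp_sum, ← Complex.exp_add, dotProduct,
      Finset.mul_sum, ← Finset.sum_add_distrib, cst]
    congr 1
    refine Finset.sum_congr rfl fun i _ => ?_
    have := hd0 i
    field_simp
  have h2 := hasSum_sum (s := Finset.univ) fun c _ => h1 c
  simp only [← Finset.sum_mul, hsum] at h2
  have h3 : ∑ c, ∏ i, jacobiTheta₂ (u (s c) i) (-1 / (τ * d i)) =
      Fintype.card ((Fin n → ℤ) ⧸ N) * ∑' x, thT B (-1 / τ) x := by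
    rw [← h2.tsum_eq, ← hLinj.tsum_eq, ← tsum_mul_left]
    · refine tsum_congr fun z => ?_
      rw [if_pos ⟨z, rfl⟩]
      simp only [E, hLq, thT]
    · intro m hm
      by_contra h
      rw [Function.mem_support, if_neg h, zero_mul] at hm
      exact hm rfl
  have h4 : ∀ i, 1 / (-I * (τ * d i)) ^ (1 / 2 : ℂ) =
      1 / (d i : ℂ) ^ (1 / 2 : ℂ) * (1 / (-I * τ) ^ (1 / 2 : ℂ)) := by
    intro i
    have h5 : -I * τ ≠ 0 := mul_ne_zero (neg_ne_zero.2 I_ne_zero) hτ0
    have h6 : (d i : ℂ) = ((d i : ℝ) : ℂ) := by simp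
    have h7 : (0 : ℝ) < d i := Int.cast_pos.2 (hd i)
    rw [one_div_mul_one_div, ← mul_assoc, mul_comm _ (d i : ℂ),
      cpow_def_of_ne_zero (mul_ne_zero (hd0 i) h5), cpow_def_of_ne_zero (hd0 i),
      cpow_def_of_ne_zero h5, ← Complex.exp_add, h6, log_ofReal_mul h7 h5, ofReal_log h7.le,
      add_mul]
  simp only [Finset.prod_mul_distrib, ← Finset.mul_sum, h3, h4, Finset.prod_const,
    Finset.card_univ, Fintype.card_fin]
  ring

end Cfsg.Agent.H85
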